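import Cfsg.Agent.H23.K0
import Cfsg.Agent.S5394
import Cfsg.Agent.S0363

/-! S5567, part J1: both classes of involutions of `M₂₄` meet a subgroup of order 64 and exponent 2. -/

set_option autoImplicit false

namespace H29.KJ
open Cfsg Subgroup MulAction
universe u

theorem both (E : Subgroup M24) (c : Nat.card E = 64) (sq : ∀ e ∈ E, e * e = 1) :
    (∃ e ∈ E, e ≠ 1 ∧ ∀ p, e.1 p ≠ p) ∧ ∃ e ∈ E, e ≠ 1 ∧ ¬ ∀ p, e.1 p ≠ p := by
  classical
  have := Fintype.ofFinite E
  have := Fintype.ofFinite (Quotient (orbitRel E GolayPt))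
  have bs := sum_card_fixedBy_eq_card_orbits_mul_card_group E GolayPt
  rw [Nat.card_eq_fintype_card] at c
  have fx : ∀ e : E, Fintype.card (fixedBy GolayPt e) = (Finset.univ.filter fun p => e.1.1 p = p).card := fun e => by
    rw [← Fintype.card_subtype]; exact Fintype.card_congr (Equiv.refl _)
  simp only [fx, c] at bs
  rw [← Finset.add_sum_erase _ _ (Finset.mem_univ (1 : E))] at bs
  have h1 : (Finset.univ.filter fun p => (1 : E).1.1 p = p).card = 24 := by
    exact (congrArg Finset.card (Finset.filter_true_of_mem fun _ _ => rfl)).trans rfl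
  have o2 : ∀ e : E, e ≠ 1 → orderOf e.1.1 = 2 := fun e h =>
    orderOf_eq_prime (by rw [pow_two]; exact congrArg Subtype.val (sq _ e.2)) fun r => h (Subtype.ext (Subtype.ext r))
  rw [h1] at bs
  constructor
  · by_contra! h
    rw [Finset.sum_congr rfl (g := fun _ => 8) fun e he => by
      have n := (Finset.mem_erase.1 he).1
      obtain ⟨p, hp⟩ := h e.1 e.2 fun r => n (Subtype.ext r)
      exact Cfsg.Agent.S0363.result.1 _ ((Cfsg.Agent.S5394.result.1 _ e.1.2 (o2 e n)).resolve_right fun r => r p hp),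
      Finset.sum_const, Finset.card_erase_of_mem (Finset.mem_univ _), Finset.card_univ, c, smul_eq_mul] at bs
    omega
  · by_contra! h
    rw [Finset.sum_eq_zero fun e he => by
      rw [Finset.card_eq_zero, Finset.filter_eq_empty_iff]
      exact fun p _ => h e.1 e.2 (fun r => (Finset.mem_erase.1 he).1 (Subtype.ext r)) p] at bs
    omega

theorem j1 : Cfsg.Agent.H23.K.J1Stmt.{u} := by
  intro X _ _ N P _ ⟨e⟩ c hP x hx
  let π : X →* M24 := e.toMonoidHom.comp (QuotientGroup.mk' N)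
  have πs : Function.Surjective π := e.surjective.comp (QuotientGroup.mk'_surjective _)
  have πk : ∀ g, π g = 1 ↔ g ∈ N := fun g => e.map_eq_one_iff.trans (QuotientGroup.eq_one_iff g)
  by_cases x1 : π x = 1
  · exact ⟨x⁻¹, N.inv_mem ((πk x).1 x1), by simp⟩
  have cE : Nat.card (P.map π) = 64 := by rw [← map_map, card_map_of_injective e.injective, c]
  have sq : ∀ g ∈ P.map π, g * g = 1 := by
    rintro _ ⟨p, hp, rfl⟩
    obtain ⟨n, hn, r⟩ := hP p hp
    have := congrArg π r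
    rwa [map_mul, map_mul, (πk n).2 hn, mul_one, map_one] at this
  have o2 : ∀ g : M24, g * g = 1 → g ≠ 1 → orderOf g.1 = 2 := fun g s h =>
    orderOf_eq_prime (by rw [pow_two]; exact congrArg Subtype.val s) fun r => h (Subtype.ext r)
  obtain ⟨g, hg, g1, gi⟩ : ∃ g ∈ P.map π, g ≠ 1 ∧ ((∀ p, g.1 p ≠ p) ↔ ∀ p, (π x).1 p ≠ p) := by
    obtain ⟨⟨a, a1, a2, a3⟩, b, b1, b2, b3⟩ := both _ cE sq
    by_cases h : ∀ p, (π x).1 p ≠ p
    exacts [⟨a, a1, a2, iff_of_true a3 h⟩, ⟨b, b1, b2, iff_of_false b3 h⟩]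
  obtain ⟨k, hk, r⟩ := Cfsg.Agent.S5394.result.2.2.2 _ g.2 _ (π x).2 (o2 g (sq g hg) g1)
    (o2 _ (by rw [← map_mul, (πk _).2 hx]) x1) gi
  obtain ⟨y, hy⟩ := πs ⟨k, hk⟩
  obtain ⟨p, hp, rfl⟩ := hg
  obtain ⟨n, hn, s⟩ := hP p hp
  have r' : π y * π p * (π y)⁻¹ = π x := by rw [hy]; exact Subtype.ext r
  refine ⟨x⁻¹ * (y * (p * n) * y⁻¹), (πk _).1 ?_, ?_⟩
  · rw [map_mul, map_mul, map_mul, map_mul, (πk n).2 hn, mul_one, map_inv, map_inv, r', inv_mul_cancel]
  · rw [mul_inv_cancel_left, conj_mul, s]; group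

end H29.KJ
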