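import Mathlib
import Cfsg.Agent.H29.Tri
import Cfsg.Agent.H08.Dihedral

/-!
A class of 3-transpositions of Fischer type containing the centralisers of its members generates the whole group
(namespace H29): `dih`, `Emb`, `Emb.eq_top`, `T22.emb`, `T23.emb`.
-/

set_option autoImplicit false
open Cfsg Subgroup

namespace H29

variable {G G' : Type*} [Group G] [Group G'] [Finite G]

theorem dih {x y : G} (hx : x * x = 1) (hy : y * y = 1) (h : ¬ IsConj x y) : ∃ t, t * t = 1 ∧ t ≠ 1 ∧ Commute t x ∧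
    Commute t y ∧ ((IsConj x (t * x) ∧ IsConj y (t * y)) ∨ (IsConj y (t * x) ∧ IsConj x (t * y))) :=
  have e := H08.even_orderOf_mul_of_not_isConj hx hy h
  ⟨_, H08.mul_self_of_orderOf (H08.half_pow_invol e), H08.ne_one_of_orderOf (H08.half_pow_invol e),
    H08.commute_half_pow_left hx hy e, H08.commute_half_pow_right hx hy e, (H08.conj_mul_half_pow hx hy e).imp
      (fun ⟨_, _, a, b⟩ => ⟨isConj_iff.2 ⟨_, a⟩, isConj_iff.2 ⟨_, b⟩⟩)
      fun ⟨_, ⟨_, a⟩, _, b⟩ => ⟨isConj_iff.2 ⟨_, a⟩, isConj_iff.2 ⟨_, b⟩⟩⟩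

/-- the hypotheses of the embedding argument -/
structure Emb (D : Set G) : Prop where
  rl : RL 2 D
  cen : ∀ x ∈ D, centralizer {x} ≤ closure D
  fix : ∀ f, IsoBy f D D → (∀ x ∈ D, f (f x) = x) → ∃ x ∈ D, f x = x
  cl : ∀ x ∈ D, ∀ y, IsConj x y → Commute x y → y ∈ D
  odd : ∀ a ∈ D, ∀ b ∈ dperp D a, ∃ n, Odd n ∧ Wd (mu D a b) n (a * b)
  hex : ∀ a ∈ D, ∀ b ∈ dperp D a, ∀ c ∈ dperp (dperp D a) b,
    {u | u ∈ D ∧ ∀ e ∈ D, Commute a e → Commute b e → Commute c e → Commute u e}.ncard ≤ 6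
  cnt : ∀ a ∈ D, ∀ b ∈ dperp D a, (dperp (dperp D a) b).ncard * 6 < D.ncard

namespace Emb

variable {D : Set G} (h : Emb D)
include h

omit [Finite G] in
theorem mem_of_conj {x g : G} (hx : x ∈ D) (hg : g * x * g⁻¹ ∈ D) : g ∈ closure D := by
  obtain ⟨k, hk, e⟩ := h.rl.1.cls x hx _ hg
  refine (mul_mem_cancel_left (inv_mem hk)).1 (h.cen x hx (mem_centralizer_singleton_iff.2 ?_))
  rw [mul_assoc, eq_mul_of_mul_inv_eq e.symm]; group

omit [Finite G] in
theorem exists_comm {t : G} (ht : t ∈ closure D) (h2 : t * t = 1) : ∃ x ∈ D, Commute t x :=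
  let ⟨x, a, b⟩ := h.fix _ (h.rl.1.tt.isoBy_conj ht) fun x _ => by
    rw [show t * (t * x * t⁻¹) * t⁻¹ = t * t * x * (t * t)⁻¹ by group, h2]; simp
  ⟨x, a, mul_inv_eq_iff_eq_mul.1 b⟩

omit [Finite G] in
theorem mem {x y : G} (hx : x ∈ D) (c : IsConj x y) (hy : y ∈ closure D) : y ∈ D := by
  obtain ⟨g, rfl⟩ := isConj_iff.1 c
  obtain ⟨z, a, b⟩ := h.exists_comm hy (by rw [conj_mul, tts_sq h.rl.1.tts hx]; simp)
  obtain ⟨k, -, e⟩ := h.rl.1.cls z a x hx
  exact h.cl z a _ ((isConj_iff.2 ⟨k, e⟩).trans c) b.symm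

theorem not_two {x a b : G} (hx : x ∈ D) (ha : a ∈ D) (hb : b ∈ dperp D a) : ¬ IsConj x (a * b) := fun c =>
  absurd (h.rl.le le_rfl (by omega) (by omega) (cp_one.2 (h.mem hx c (mul_mem (subset_closure ha) (subset_closure hb.1))))
    (cp_two.2 ⟨a, ha, b, hb, rfl⟩)) (by omega)

theorem not_three {x a b c : G} (hx : x ∈ D) (ha : a ∈ D) (hb : b ∈ dperp D a) (hc : c ∈ dperp (dperp D a) b) :
    ¬ IsConj x (a * b * c) := fun q =>
  have w := cp_three.2 ⟨a, ha, b, hb, c, hc, rfl⟩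
  absurd (h.rl.le le_rfl (by omega) le_rfl (cp_one.2 (h.mem hx q w.wd.mem)) w) (by omega)

theorem cen_two {a b k : G} (ha : a ∈ D) (hb : b ∈ dperp D a) (hk : Commute k (a * b)) : k ∈ closure D := by
  have T := h.rl.1.tts
  have o : orderOf (a * b) = 2 := tts_orderOf_mul_of_commute T ha hb.1 hb.2.2 hb.2.1.symm
  have : ((zpowers (a * b)).subgroupOf (centralizer {a * b})).Normal := ⟨fun n hn g => by
    obtain ⟨i, hi⟩ := mem_subgroupOf.1 hn
    exact mem_subgroupOf.2 ⟨i, by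
      simp only [coe_mul, InvMemClass.coe_inv, ← hi]
      exact (conj_eq_of_commute (Commute.zpow_right (mem_centralizer_singleton_iff.1 g.2) i)).symm⟩⟩
  have X := ext2_centralizer o
  set π := QuotientGroup.mk' ((zpowers (a * b)).subgroupOf (centralizer {a * b}))
  let a' : centralizer {a * b} := ⟨a, mem_centralizer_singleton_iff.2 ((Commute.refl a).mul_right hb.2.2)⟩
  have ab : a * b * a = b := by rw [← hb.2.2.symm.eq, tts_cancel' T ha]
  -- members of the class of `a'` lying in `D`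
  have k1 : ∀ y : centralizer {a * b}, IsConj a' y → y.1 ∈ D → y.1 = a ∨ y.1 = b := fun y c hy => by
    obtain ⟨g, rfl⟩ := isConj_iff.1 c
    by_contra! q
    obtain ⟨c1, c2⟩ := (tts_commute_mul_iff T ha hb.1 hy hb.2.1.symm).1 (mem_centralizer_singleton_iff.1 (g * a' * g⁻¹).2)
    refine h.not_three hb.1 ha hb ⟨⟨hy, q.1, c1.symm⟩, q.2, c2.symm⟩ (isConj_iff.2 ⟨g, ?_⟩)
    have := conj_eq_of_commute (mem_centralizer_singleton_iff.1 g.2)
    show _ = a * b * (g * a * g.1⁻¹)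
    rw [← congrArg (· * (g * a * g.1⁻¹)) this, conj_mul, ab]
  have k2 : ∀ y : centralizer {a * b}, IsConj a' y → y.1 ∈ D → π y = π a' := fun y c hy =>
    (k1 y c hy).elim (fun e => congrArg π (Subtype.ext e)) fun e => by
      rw [show y = ⟨a * b, mem_centralizer_singleton_iff.2 rfl⟩ * a' from Subtype.ext (e.trans ab.symm), map_mul,
        show π ⟨a * b, _⟩ = 1 from (QuotientGroup.eq_one_iff _).2 (mem_zpowers _), one_mul]
  have cj : ∀ {u y : centralizer {a * b}}, IsConj u y → IsConj u.1 y.1 := fun c => (centralizer _).subtype.map_isConj c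
  have k3 : ∀ y : centralizer {a * b}, IsConj a' y → Commute (π y) (π a') → π y = π a' := fun y c e => by
    refine k2 y c (h.mem ha (cj c) (h.mem_of_conj ha ?_))
    rcases X.eq_or (x := y * a' * y⁻¹) (y := a') (by rw [map_mul, map_mul, map_inv, conj_eq_of_commute e]) with q | q
    · exact Set.mem_of_eq_of_mem (congrArg Subtype.val q) ha
    · exact Set.mem_of_eq_of_mem ((congrArg Subtype.val q).trans ab) hb.1
  have k4 : ∀ {u : centralizer {a * b}} {y}, IsConj (π u) y → ∃ y', IsConj u y' ∧ π y' = y := fun c => by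
    obtain ⟨g, rfl⟩ := isConj_iff.1 c
    obtain ⟨g, rfl⟩ := X.surj g
    exact ⟨_, isConj_iff.2 ⟨g, rfl⟩, by simp⟩
  let k' : centralizer {a * b} := ⟨k, mem_centralizer_singleton_iff.2 hk⟩
  have sa : a' * a' = 1 := Subtype.ext (tts_sq T ha)
  have c0 : IsConj a' (k' * a' * k'⁻¹) := isConj_iff.2 ⟨k', rfl⟩
  set x := k' * a' * k'⁻¹ with hx
  have sx : x * x = 1 := by rw [hx, conj_mul, sa]; simp
  have key : ∀ u : centralizer {a * b}, u.1 ∈ D → Commute (π x) (π a' * π u) := fun u hu => by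
    obtain ⟨c1, c2⟩ := (tts_commute_mul_iff T ha hb.1 hu hb.2.1.symm).1 (mem_centralizer_singleton_iff.1 u.2)
    by_cases q : u.1 = a ∨ u.1 = b
    · have : IsConj a' u := q.elim (fun e => by rw [show u = a' from Subtype.ext e]) fun e => by
        obtain ⟨g, -, e0, e1⟩ := h.rl.1.pair_comm ha hb hb.1 (mem_dperp_comm ha hb)
        exact isConj_iff.2 ⟨⟨g, mem_centralizer_singleton_iff.2 (mul_inv_eq_iff_eq_mul.1 (by
          rw [← conj_mul, e0, e1, hb.2.2.eq]))⟩, Subtype.ext (e0.trans e.symm)⟩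
      rw [k2 u this hu, ← map_mul, sa, map_one]; exact Commute.one_right _
    push Not at q
    have n3 := h.not_three hu ha hb ⟨⟨hu, q.1, c1.symm⟩, q.2, c2.symm⟩
    have su : u * u = 1 := Subtype.ext (tts_sq T hu)
    have nc' : ¬ IsConj (π x) (π u) := fun p => by
      obtain ⟨y, p1, p2⟩ := k4 p
      rcases X.eq_or p2 with r | r
      · exact (k1 u (r ▸ c0.trans p1) hu).elim q.1 q.2
      obtain ⟨m, -, hm⟩ := h.rl.1.cls _ hu _ ha
      exact n3 ((isConj_iff.2 ⟨m, hm⟩).trans (by simpa [r] using cj (c0.trans p1)))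
    obtain ⟨t, t1, t2, t3, t4, ⟨p, -⟩ | ⟨-, p⟩⟩ := dih (x := π x) (y := π u) (by rw [← map_mul, sx, map_one])
      (by rw [← map_mul, su, map_one]) nc'
    · obtain ⟨y, p1, p2⟩ := k4 p
      have := k3 (k'⁻¹ * y * k'⁻¹⁻¹) ((c0.trans p1).trans (isConj_iff.2 ⟨_, rfl⟩)) (by
        rw [map_mul, map_mul, map_inv π k'⁻¹, commute_conj_iff', ← map_inv, ← map_mul, ← map_mul, inv_inv, p2]
        exact t3.mul_left (.refl _))
      rw [map_mul, map_mul, map_inv π k'⁻¹, mul_inv_eq_iff_eq_mul, map_inv, inv_mul_eq_iff_eq_mul, ← map_inv, ← map_mul,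
        ← map_mul, ← mul_assoc, p2] at this
      exact absurd (mul_eq_right.1 this) t2
    · obtain ⟨y, p1, p2⟩ := k4 p
      have e : Commute (π y) (π u) := p2 ▸ t4.mul_left (.refl _)
      obtain ⟨m, -, hm⟩ := h.rl.1.cls _ hu _ ha
      have : y.1 ∈ D := by
        rcases X.eq_or (x := y * u * y⁻¹) (y := u) (by rw [map_mul, map_mul, map_inv, conj_eq_of_commute e]) with r | r
        · exact h.cl _ hu _ ((isConj_iff.2 ⟨m, hm⟩).trans (cj (c0.trans p1)))
            (mul_inv_eq_iff_eq_mul.1 (congrArg Subtype.val r)).symm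
        · exact (n3 (isConj_iff.2 ⟨_, congrArg Subtype.val r⟩)).elim
      rw [← k2 y (c0.trans p1) this, p2, mul_assoc, ← map_mul, su, map_one, mul_one]
      exact t3.symm
  obtain ⟨n, hn, l, l1, l2, l3⟩ := h.odd a ha b hb
  have : ∀ l : List G, (∀ u ∈ l, u ∈ mu D a b) → ∃ w : centralizer {a * b}, w.1 = l.prod ∧ Commute (π w) (π a') ∧
      Commute (π x) (π a' ^ l.length * π w) := fun l hl => by
    induction l with
    | nil => exact ⟨1, rfl, by simp, by simp⟩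
    | cons u l ih =>
      obtain ⟨w, w1, w2, w3⟩ := ih fun v hv => hl v (by simp [hv])
      have m := hl u (by simp)
      let u' : centralizer {a * b} := ⟨u, mem_centralizer_singleton_iff.2 (m.2.1.mul_left m.2.2).symm⟩
      have c : Commute (π u') (π a') := Commute.map (show Commute u' a' from Subtype.ext m.2.1.symm.eq) π
      refine ⟨u' * w, by simp [u', w1], by rw [map_mul]; exact c.mul_left w2, ?_⟩
      have := (key u' m.1).mul_right w3
      rwa [mul_assoc, ← mul_assoc (π u'), (c.pow_right _).eq, mul_assoc, ← mul_assoc, ← pow_succ', ← map_mul] at this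
  obtain ⟨w, w1, -, w3⟩ := this l l2
  rw [show π w = 1 from (QuotientGroup.eq_one_iff _).2 (mem_subgroupOf.2 (w1 ▸ l3 ▸ mem_zpowers _)), mul_one, l1,
    pow_of_sq (by rw [← map_mul, sa, map_one]), if_neg (by rw [Nat.odd_iff.1 hn]; decide)] at w3
  refine h.mem_of_conj ha ?_
  rcases X.eq_or (k3 x c0 w3) with q | q
  · exact Set.mem_of_eq_of_mem (congrArg Subtype.val q) ha
  · exact Set.mem_of_eq_of_mem ((congrArg Subtype.val q).trans ab) hb.1

omit [Finite G] in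
theorem mem_of_uq {t g : G} (ht : t ∈ closure D) (h2 : t * t = 1) (u : ∀ c, Commute c (g⁻¹ * t * g) → c ∈ closure D) :
    g ∈ closure D := by
  obtain ⟨x, a, b⟩ := h.exists_comm ht h2
  have := u (g⁻¹ * x * g⁻¹⁻¹) (by simpa using (commute_conj_iff g⁻¹).2 b.symm)
  exact inv_mem_iff.1 (h.mem_of_conj a (h.mem a (isConj_iff.2 ⟨_, rfl⟩) this))

theorem eq_top : closure D = ⊤ := eq_top_iff.2 fun g _ => by
  by_contra hg
  have T := h.rl.1.tts
  obtain ⟨a, ha, b, hb, ne, c⟩ := h.rl.1.wid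
  have hb : b ∈ dperp D a := ⟨hb, ne.symm, c⟩
  have u1 : ∀ x ∈ D, ∀ c, Commute c x → c ∈ closure D := fun x hx c q => h.cen x hx (mem_centralizer_singleton_iff.2 q)
  have key : ∀ x ∈ D, ∃ y ∈ dperp (dperp D a) b, ∃ p ∈ dperp D x, ∃ q ∈ dperp (dperp D x) p,
      g⁻¹ * (y * (a * b)) * g = x * p * q := fun x hx => by
    have cx : IsConj x (g * x * g⁻¹) := isConj_iff.2 ⟨g, rfl⟩
    have sj := tts_mul_sq T ha hb.1 c
    obtain ⟨t, t1, t2, t3, t4, p⟩ := dih (x := g * x * g⁻¹) (by rw [conj_mul, tts_sq T hx]; simp) sj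
      fun q => h.not_two hx ha hb (cx.trans q)
    have m := h.cen_two ha hb t4
    have c0 : Commute (g⁻¹ * t * g) x := ((commute_conj_iff' g).1 t3.symm).symm
    have m0 := u1 x hx _ c0
    have s0 : g⁻¹ * t * g * (g⁻¹ * t * g) = 1 := by
      rw [show g⁻¹ * t * g * (g⁻¹ * t * g) = g⁻¹ * (t * t) * g by group, t1]; simp
    have n0 : (∀ c, Commute c (g⁻¹ * t * g) → c ∈ closure D) → False := fun u => hg (h.mem_of_uq m t1 u)
    have n1 : (∀ c, Commute c t → c ∈ closure D) → False := fun u => hg (inv_mem_iff.1 (h.mem_of_uq m0 s0 (by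
      simpa [mul_assoc] using u)))
    have e0 : IsConj (t * (g * x * g⁻¹)) (g⁻¹ * t * g * x) := isConj_iff.2 ⟨g⁻¹, by group⟩
    have m1 := mul_mem m0 (subset_closure hx)
    obtain ⟨p, -⟩ | ⟨p, p'⟩ := p
    · have := h.mem hx ((cx.trans p).trans e0) m1
      refine (n0 fun k hk => h.cen_two this ⟨hx, fun q => t2 ?_, c0.mul_left (.refl x)⟩ (by rwa [tts_cancel' T hx])).elim
      rw [eq_comm, mul_eq_right, mul_assoc, inv_mul_eq_one, eq_comm, mul_eq_right] at q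
      exact q
    have hy := h.mem hx (cx.trans p') (mul_mem m (mul_mem (subset_closure ha) (subset_closure hb.1)))
    obtain ⟨c1, c2⟩ := (tts_commute_mul_iff T ha hb.1 hy ne).1 (t4.mul_left (.refl _))
    have et : t * (a * b) * (a * b) = t := by rw [mul_assoc, sj, mul_one]
    obtain ⟨k, hk⟩ := isConj_iff.1 (p.trans e0)
    have mk : k ∈ closure D := h.mem_of_uq m1 (by rw [c0.symm.mul_mul_mul_comm, s0, tts_sq T hx, mul_one]) fun c q =>
      h.cen_two ha hb (by rwa [← hk, show k⁻¹ * (k * (a * b) * k⁻¹) * k = a * b by group] at q)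
    have ha' := h.rl.1.tt.conj_mem mk ha
    have hb' := h.rl.1.tt.conj_mem mk hb.1
    have ne' : k * a * k⁻¹ ≠ k * b * k⁻¹ := by simpa
    have c' := (commute_conj_iff k).2 c
    rw [← conj_mul] at hk
    obtain ⟨c3, c4⟩ := (tts_commute_mul_iff T ha' hb' hx ne').1 (hk ▸ (c0.mul_left (.refl x)).symm)
    have e1 : g⁻¹ * t * g = x * (k * a * k⁻¹) * (k * b * k⁻¹) := by
      rw [mul_assoc x, hk, ← mul_assoc, ← c0.eq, tts_cancel' T hx]
    refine ⟨_, ⟨⟨hy, fun q => n1 ?_, c1.symm⟩, fun q => n1 ?_, c2.symm⟩, _, ⟨ha', fun q => n0 ?_, c3⟩, _,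
      ⟨⟨hb', fun q => n0 ?_, c4⟩, ne'.symm, c'⟩, by rw [et, e1]⟩
    · rw [← et, q, tts_cancel T ha]; exact u1 _ hb.1
    · rw [← et, q, c.eq, tts_cancel T hb.1]; exact u1 _ ha
    · rw [e1, q, tts_sq T hx, one_mul]; exact u1 _ hb'
    · rw [e1, q, c3.eq, tts_cancel' T hx]; exact u1 _ ha'
  classical
  choose! y hy p hp q hq e using key
  refine (h.cnt a ha b hb).not_ge ?_
  rw [← card_fs, ← card_fs, mul_comm]
  refine Finset.card_le_mul_card_image_of_maps_to (f := y) (fun x hx => mem_fs.2 (hy x (mem_fs.1 hx))) 6 fun z _ => ?_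
  rcases ((fs D).filter (y · = z)).eq_empty_or_nonempty with r | ⟨x, r⟩
  · simp [r]
  rw [Finset.mem_filter, mem_fs] at r
  refine le_trans ?_ (h.hex x r.1 _ (hp x r.1) _ (hq x r.1))
  rw [← card_fs]
  refine Finset.card_le_card fun v hv => ?_
  rw [Finset.mem_filter, mem_fs] at hv
  refine mem_fs.2 ⟨hv.1, fun w hw a1 a2 a3 => ((tts_commute_mul3_iff T hv.1 (hp v hv.1).1 (hq v hv.1).1.1 hw
    (hp v hv.1).2.1.symm (hq v hv.1).1.2.1.symm (hq v hv.1).2.1.symm (hp v hv.1).2.2 (hq v hv.1).1.2.2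
    (hq v hv.1).2.2).1 ?_).1.symm⟩
  rw [← e v hv.1, hv.2, ← r.2, e x r.1]
  exact ((a1.mul_left a2).mul_left a3).symm

end Emb

theorem T22.emb {D : Set G} (h : T22 D) (cen : ∀ x ∈ D, centralizer {x} ≤ closure D)
    (cl : ∀ x ∈ D, ∀ y, IsConj x y → Commute x y → y ∈ D) (z : ∀ w, Cen D w → w = 1) : Emb D := by
  refine ⟨h.rl, cen, fun _ => h.fix, cl, fun d hd a ha => ?_, fun _ a _ b _ c => h.ncard_hexad a b c, fun a ha b hb => by
    rw [h.par.lam_eq a ha b hb, h.card]; norm_num⟩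
  obtain ⟨x, hx, y, hy, c, hc, v⟩ := (h.2 d hd).exists_tri6
  obtain ⟨g, hg, rfl⟩ := (h.2 d hd).cls x hx a ha
  have i := (h.2 d hd).tt.isoBy_conj hg
  have hb := (i.mem_dperp hx hy.1).2 hy
  have hc' := ((i.dperp hx).mem_dperp hy hc.1).2 hc
  obtain ⟨w, w1, w2⟩ := h.seven hd ha hb hc' (mt ((i.dperp hx).vrel_iff hy hc.1).1 v)
  have e := z _ w2
  set a := g * x * g⁻¹
  set b := g * y * g⁻¹
  set c := g * c * g⁻¹
  have e' : b * c * w = d * a := by
    rw [ha.2.2.eq, ← tts_inv h.1.tts ha.1, ← tts_inv h.1.tts hd, eq_mul_inv_iff_mul_eq, eq_inv_iff_mul_eq_one,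
      mul_eq_one_comm, ← e]
    simp only [mul_assoc]
  obtain ⟨l, l1, l2, l3, l4, rfl⟩ := w1
  have : Commute a l.prod := by
    rw [eq_inv_mul_of_mul_eq e']
    exact (hb.2.2.mul_right hc'.1.2.2).inv_right.mul_right (ha.2.2.symm.mul_right (.refl a))
  refine ⟨5, by decide, b :: c :: l, by simp [l2], fun u hu => ?_, by simpa [mul_assoc] using e'⟩
  simp only [List.mem_cons] at hu
  rcases hu with rfl | rfl | hu
  exacts [⟨hb.1.1, hb.1.2.2, hb.2.2⟩, ⟨hc'.1.1.1, hc'.1.1.2.2, hc'.1.2.2⟩, ⟨(l3 u hu).1, (l3 u hu).2.2,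
    commute_of_mem_cp h.1.tts l1 l2.le (fun v hv => (l3 v hv).1) l4 ha.1 this u hu⟩]

theorem T23.emb {D : Set G} (h : T23 D) (cen : ∀ x ∈ D, centralizer {x} ≤ closure D)
    (cl : ∀ x ∈ D, ∀ y, IsConj x y → Commute x y → y ∈ D) (z : ∀ w, Cen D w → w = 1) : Emb D := by
  refine ⟨h.rl.mono (by omega), cen, fun _ => h.fix, cl, fun d hd a ha => ?_, fun a ha b hb c hc => ?_, fun a ha b hb => by
    rw [h.par.lam_eq a ha b hb, h.card]; norm_num⟩
  · obtain ⟨_, hw⟩ := (((h.2 d hd).2 a ha).r3 (n := 2)).exists_cp (m := 1) fun _ hx =>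
      let ⟨e, he⟩ := (((h.2 d hd).2 a ha).r3 (n := 2)).exists_dperp hx; ⟨e, cp_one.2 he⟩
    obtain ⟨x, hx, y, hy, rfl⟩ := cp_two.1 hw
    obtain ⟨w, ⟨l, l1, l2, l3, l4, rfl⟩, w2⟩ := h.hept (cp_succ.2 ⟨d, hd, _, cp_succ.2 ⟨a, ha, _, hw, rfl⟩, rfl⟩)
    have e := z _ w2
    have e' : x * y * l.prod = d * a := by
      rw [← inv_eq_of_mul_eq_one_right (tts_mul_sq h.1.tts hd ha.1 ha.2.2), eq_inv_iff_mul_eq_one, mul_eq_one_comm, ← e]
      simp only [mul_assoc]
    have k : ∀ v ∈ D, Commute v d → Commute v a → Commute v x → Commute v y → ∀ u ∈ l, Commute v u := fun v hv a1 a2 a3 a4 =>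
      commute_of_mem_cp h.1.tts l1 l2.le l3 l4 hv (eq_inv_mul_of_mul_eq e' ▸ (a3.mul_right a4).inv_right.mul_right (a1.mul_right a2))
    refine ⟨5, by decide, x :: y :: l, by simp [l2], fun u hu => ?_, by simpa [mul_assoc] using e'⟩
    simp only [List.mem_cons] at hu
    rcases hu with rfl | rfl | hu
    exacts [⟨hx.1.1, hx.1.2.2, hx.2.2⟩, ⟨hy.1.1.1, hy.1.1.2.2, hy.1.2.2⟩, ⟨l3 u hu,
      k d hd (.refl d) ha.2.2 hx.1.2.2 hy.1.1.2.2 u hu, k a ha.1 ha.2.2.symm (.refl a) hx.2.2 hy.1.2.2 u hu⟩]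
  · refine le_trans (Set.ncard_le_ncard (t := {a, b, c}) fun u hu => R3.mem_three (fun d hd e he => ((h.2 d hd).2 e he).r3 (n := 2))
      ha hb hc hu.1 hu.2) ?_
    exact (Set.ncard_insert_le _ _).trans (by have := Set.ncard_insert_le b {c}; simp at this; omega)

end H29
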