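import Cfsg.Agent.H06.J0
import Cfsg.Agent.H28.JA
import Cfsg.Agent.S1553
import Cfsg.Agent.S1554
import Cfsg.Agent.S1555
import Cfsg.Agent.S0381
import Cfsg.Agent.S0378
import Cfsg.Agent.S0363

/-! S5566, part H: the hexad stabiliser in `M₂₂` (concrete half). -/

set_option autoImplicit false

namespace H29.JH
open Cfsg Subgroup Equiv MulAction
open scoped Pointwise

theorem mem22 (g : Perm GolayPt) : g ∈ Spor.M22 ↔ g ∈ M24 ∧ g none = none ∧ g (some 0) = some 0 := by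
  simp [Spor.M22, Spor.M23, and_assoc]

theorem c22 : Nat.card Spor.M22 = 443520 := by
  rw [← Cfsg.Agent.S0378.result none (some 0) (by simp), ← card_map_of_injective M24.subtype_injective]
  congr 2
  ext g
  simp only [SetLike.mem_coe, mem22, mem_map, mem_inf, mem_stabilizer_iff]
  exact ⟨fun h => ⟨⟨g, h.1⟩, ⟨h.2.1, h.2.2⟩, rfl⟩, by rintro ⟨g, h, rfl⟩; exact ⟨g.2, h.1, h.2⟩⟩

theorem con : ∃ (K Y : Subgroup Spor.M22) (α : Type) (_ : Fintype α) (_ : DecidableEq α) (φ : K →* alternatingGroup α),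
    Fintype.card α = 6 ∧ Function.Surjective φ ∧ (∀ k : K, φ k = 1 ↔ (k : Spor.M22) ∈ Y) ∧ Y ≤ K ∧ Nat.card Y = 16 ∧
    (∀ y ∈ Y, y * y = 1) ∧ (∀ k ∈ K, (∀ y ∈ Y, k * y = y * k) → k ∈ Y) ∧ K.index = 77 := by
  classical
  obtain ⟨O, ⟨hO, sO⟩, -⟩ := Cfsg.Agent.S0363.result.2 {none, some 0, some 1, some 2, some 3} (by decide)
  have n0 : (none : GolayPt) ∈ O := sO (by simp)
  have s0 : (some 0 : GolayPt) ∈ O := sO (by simp)
  have c8 : ∀ o ∈ octads, o.card = 8 := Cfsg.Agent.S0363.result.1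
  have le : M24 ⊓ fixingSubgroup (Perm GolayPt) (O : Set GolayPt) ≤ Spor.M22 := fun g h =>
    (mem22 g).2 ⟨h.1, (mem_fixingSubgroup_iff _).1 h.2 _ n0, (mem_fixingSubgroup_iff _).1 h.2 _ s0⟩
  let K : Subgroup Spor.M22 := (stabilizer (Perm GolayPt) O).subgroupOf Spor.M22
  let Y : Subgroup Spor.M22 := (M24 ⊓ fixingSubgroup (Perm GolayPt) (O : Set GolayPt)).subgroupOf Spor.M22
  have mK : ∀ g : Spor.M22, g ∈ K ↔ ∀ x, g.1 x ∈ O ↔ x ∈ O := fun g => by
    rw [mem_subgroupOf, mem_stabilizer_finset]; rfl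
  have mY : ∀ g : Spor.M22, g ∈ Y ↔ ∀ x ∈ O, g.1 x = x := fun g => by
    rw [mem_subgroupOf, mem_inf, mem_fixingSubgroup_iff]; exact ⟨fun h => h.2, fun h => ⟨((mem22 _).1 g.2).1, h⟩⟩
  have YK : Y ≤ K := fun g h => (mK g).2 fun x => ⟨fun r => by
    have := (mY g).1 h _ r; rwa [g.1.injective this] at r, fun r => by rwa [(mY g).1 h _ r]⟩
  have cY : Nat.card Y = 16 := (Nat.card_congr (subgroupOfEquivOfLe le).toEquiv).trans (Cfsg.Agent.S0381.result O hO).1
  have Y2 : ∀ y ∈ Y, y * y = 1 := fun y h => Subtype.ext ((Cfsg.Agent.S0381.result O hO).2 y.1 h)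
  let pr : O → Prop := fun x => x.1 ≠ none ∧ x.1 ≠ some 0
  have hp : ∀ k : K, ∀ x : O, pr (k.1.1.subtypePerm ((mK _).1 k.2) x) ↔ pr x := fun k x => by
    obtain ⟨-, a, b⟩ := (mem22 _).1 k.1.2
    show k.1.1 x ≠ none ∧ k.1.1 x ≠ some 0 ↔ x.1 ≠ none ∧ x.1 ≠ some 0
    rw [← k.1.1.injective.ne_iff (x := x.1) (y := none), ← k.1.1.injective.ne_iff (x := x.1) (y := some 0), a, b]
  have ev : ∀ k : K, (k.1.1.subtypePerm ((mK _).1 k.2)).subtypePerm (hp k) ∈ alternatingGroup {x // pr x} := fun k => by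
    obtain ⟨m, a, b⟩ := (mem22 _).1 k.1.2
    rw [Perm.mem_alternatingGroup, Perm.sign_subtypePerm _ _ fun x h => ⟨fun e => h (Subtype.ext (by
      show k.1.1 x = x; rw [e, a])), fun e => h (Subtype.ext (by show k.1.1 x = x; rw [e, b]))⟩]
    exact Perm.mem_alternatingGroup.1 ((Set.ext_iff.1 (Cfsg.Agent.S1553.result O hO) _).1 ⟨_, m, _, rfl⟩)
  let φ : K →* alternatingGroup {x // pr x} := ⟨⟨fun k => ⟨_, ev k⟩, rfl⟩, fun _ _ => rfl⟩
  have c6 : Fintype.card {x // pr x} = 6 := by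
    have : Fintype.card {x // ¬ pr x} = 2 := by
      rw [Fintype.card_subtype, show Finset.univ.filter (fun x => ¬ pr x) = {⟨none, n0⟩, ⟨some 0, s0⟩} by
        ext x; simp only [pr, Finset.mem_filter, Finset.mem_univ, true_and, Finset.mem_insert, Finset.mem_singleton, Subtype.ext_iff]; tauto]
      exact Finset.card_pair (by simp)
    rw [Fintype.card_subtype_compl, Fintype.card_coe, c8 O hO] at this
    omega
  have sur : Function.Surjective φ := fun e => by
    obtain ⟨g, m, h, r⟩ := (Set.ext_iff.1 (Cfsg.Agent.S1553.result O hO) (Perm.ofSubtype e.1)).2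
      (Perm.mem_alternatingGroup.2 (by rw [Perm.sign_ofSubtype]; exact e.2))
    have f : ∀ x : O, ¬ pr x → g x = x := fun x n => congrArg Subtype.val
      (show g.subtypePerm h x = x by rw [r, Perm.ofSubtype_apply_of_not_mem _ n])
    refine ⟨⟨⟨g, (mem22 g).2 ⟨m, f ⟨_, n0⟩ (by simp [pr]), f ⟨_, s0⟩ (by simp [pr])⟩⟩, (mK _).2 h⟩, Subtype.ext (Perm.ext fun x => Subtype.ext ?_)⟩
    show g.subtypePerm h x.1 = _
    rw [r, Perm.ofSubtype_apply_coe]
  have ker : ∀ k : K, φ k = 1 ↔ (k : Spor.M22) ∈ Y := fun k => by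
    obtain ⟨-, a, b⟩ := (mem22 _).1 k.1.2
    rw [mY]
    refine ⟨fun h x hx => ?_, fun h => Subtype.ext (Perm.ext fun x => Subtype.ext (Subtype.ext (h _ x.1.2)))⟩
    by_cases e1 : x = none; · rw [e1, a]
    by_cases e2 : x = some 0; · rw [e2, b]
    exact congrArg (fun e : alternatingGroup {x // pr x} => (e.1 ⟨⟨x, hx⟩, e1, e2⟩).1.1) h
  have sr : ∀ o ∈ octads, ∀ p ∉ o, ∀ g ∈ M24, (∀ x ∈ o, g x = x) → g p = p → g = 1 := fun o ho p hp g m f q =>
    mem_bot.1 ((Cfsg.Agent.S1554.result o ho p hp).1 ▸ ⟨⟨m, (mem_fixingSubgroup_iff _).2 f⟩, ⟨m, mem_stabilizer_finset.2 fun x =>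
      ⟨fun r => by have := f _ r; rwa [g.injective this] at r, fun r => by show g x ∈ o; rwa [f _ r]⟩⟩, q⟩)
  have tr : ∀ p ∉ O, ∀ q ∉ O, ∃ y ∈ Y, y.1 p = q := fun p hp q hq => by
    let j : Y → (Oᶜ : Finset GolayPt) := fun y => ⟨y.1.1 p, Finset.mem_compl.2 fun h => hp (((mK _).1 (YK y.2) p).1 h)⟩
    have ji : Function.Injective j := fun a b e => by
      have := sr O hO p hp (a⁻¹ * b).1.1 ((mem22 _).1 (a⁻¹ * b).1.2).1 ((mY _).1 (a⁻¹ * b).2)
        (Perm.inv_eq_iff_eq.2 (congrArg Subtype.val e).symm)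
      exact inv_mul_eq_one.1 (Subtype.ext (Subtype.ext this))
    obtain ⟨y, hy⟩ := (ji.bijective_of_nat_card_le (by
      rw [cY, Nat.card_eq_fintype_card, Fintype.card_coe, Finset.card_compl, c8 O hO]; decide)).2 ⟨q, Finset.mem_compl.2 hq⟩
    exact ⟨y, y.2, congrArg Subtype.val hy⟩
  refine ⟨K, Y, _, inferInstance, inferInstance, φ, c6, sur, ker, YK, cY, Y2, fun k hk c => ?_, ?_⟩
  · obtain ⟨o, ho, e⟩ := Set.nonempty_of_ncard_ne_zero (by
      rw [(Cfsg.Agent.S1555.result O hO {none, some 0} (by simp [Finset.insert_subset_iff, n0, s0])).1 (by decide)]; decide)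
    obtain ⟨p, -, hp⟩ := Finset.exists_mem_notMem_of_card_lt_card (s := O ∪ o) (t := Finset.univ)
      ((Finset.card_union_le _ _).trans_lt (by rw [c8 O hO, c8 o ho]; decide))
    rw [Finset.mem_union, not_or] at hp
    obtain ⟨y, hy, r⟩ := tr (k.1 p) (fun h => hp.1 (((mK _).1 hk p).1 h)) p hp.1
    have cm : ∀ a ∈ Y, ∀ b ∈ Y, a * b = b * a := fun a ha b hb => by
      have h := Y2 _ (Y.mul_mem ha hb)
      calc a * b = a * (a * b * (a * b)) * b := by rw [h, mul_one]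
        _ = a * a * (b * a) * (b * b) := by group
        _ = _ := by rw [Y2 a ha, Y2 b hb, one_mul, mul_one]
    have out : ∀ q ∉ O, (y * k).1 q = q := fun q hq => by
      obtain ⟨t, ht, rfl⟩ := tr p hp.1 q hq
      show (y * k * t).1 p = _
      rw [mul_assoc, c t ht, ← mul_assoc, cm y hy t ht, mul_assoc]
      exact congrArg t.1 r
    obtain ⟨m, a, b⟩ := (mem22 _).1 (y * k).2
    have := sr o ho p hp.2 _ m (fun x hx => by
      by_cases h : x ∈ O
      · have : x ∈ ({none, some 0} : Finset GolayPt) := e ▸ Finset.mem_inter.2 ⟨h, hx⟩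
        simp only [Finset.mem_insert, Finset.mem_singleton] at this
        rcases this with rfl | rfl
        exacts [a, b]
      · exact out x h) (out p hp.1)
    rw [eq_inv_of_mul_eq_one_right (Subtype.ext this : y * k = 1)]
    exact Y.inv_mem hy
  · have h1 : φ.ker = Y.subgroupOf K := by ext k; rw [MonoidHom.mem_ker, ker]; rfl
    have h2 := φ.ker.index_mul_card
    rw [index_ker, MonoidHom.range_eq_top.2 sur, card_top, h1, Nat.card_congr (subgroupOfEquivOfLe YK).toEquiv, cY] at h2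
    haveI : Nontrivial {x // pr x} := Fintype.one_lt_card_iff_nontrivial.1 (by omega)
    have h3 := two_mul_nat_card_alternatingGroup (α := {x // pr x})
    rw [Nat.card_perm, Nat.card_eq_fintype_card (α := {x // pr x}), c6] at h3
    have h4 := K.index_mul_card
    rw [c22, ← h2] at h4
    rw [show Nat.card (alternatingGroup {x // pr x}) = 360 by rw [show Nat.factorial 6 = 720 from rfl] at h3; omega] at h4
    omega

theorem h : Cfsg.Agent.H06.J.HStmt := by
  obtain ⟨K, Y, α, _, _, φ, a, b, c, d, e, f, g, i⟩ := con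
  exact ⟨K, Y, H28.JA.hx a φ b c d e f g, i⟩

end H29.JH
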