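import Cfsg.Agent.H23.K0

/-! S5567, part U. -/

set_option autoImplicit false

namespace H29.KU
open Cfsg Subgroup H20.FtW
universe u

theorem u : Cfsg.Agent.H23.K.UStmt.{u} := by
  intro G _ _ h P p
  obtain ⟨T, l⟩ := p.exists_le_sylow
  obtain ⟨V, ⟨-, -, cV⟩, un⟩ := h T
  have k : ∀ B ≤ P, EA B → Nat.card B = 2048 → B = V := fun B b e c =>
    un B ⟨b.trans l, ⟨⟨⟨fun x y => Subtype.ext (e.comm x.2 y.2)⟩⟩, fun x hx => (pow_two x).trans (e x hx)⟩, c⟩
  refine ⟨fun B b e => ?_, fun B b C c e e' r r' => (k B b e r).trans (k C c e' r').symm⟩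
  by_contra! g
  obtain ⟨n, hn⟩ := IsPGroup.iff_card.1 (p.to_le b)
  have d : 2 ^ 11 ∣ Nat.card B := by
    rw [hn] at g ⊢
    exact pow_dvd_pow _ ((Nat.pow_lt_pow_iff_right (a := 2) (n := 11) (by norm_num)).1 g).le
  have : B ≤ V := fun x hx => by
    by_cases x1 : x = 1
    · exact x1 ▸ V.one_mem
    obtain ⟨K, cK, lK⟩ := Sylow.exists_subgroup_card_pow_prime_le 2 d (zpowers (⟨x, hx⟩ : B)) (n := 1) (by
      rw [Nat.card_zpowers, pow_one]
      exact orderOf_eq_prime (Subtype.ext ((pow_two x).trans (e x hx))) fun r => x1 (congrArg Subtype.val r)) (by norm_num)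
    rw [← k (K.map B.subtype) ((map_subtype_le K).trans b) (fun y hy => e y (map_subtype_le K hy))
      (by rw [card_map_of_injective B.subtype_injective, cK]; norm_num)]
    exact ⟨_, lK (mem_zpowers _), rfl⟩
  have := card_le_of_le this
  omega

end H29.KU
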