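import Cfsg.Agent.L.Jf0
import Cfsg.Agent.H25.S7C

/-! S5572, part R. -/

set_option autoImplicit false

namespace H29.R5
open _root_.Cfsg Subgroup MulAction BG
universe u

theorem cj5 {H : Type*} [Group H] [Finite H] (n : ¬ 25 ∣ Nat.card H) (a b : H) (ha : orderOf a = 5) (hb : orderOf b = 5) :
    ∃ c : H, c * a * c⁻¹ ∈ zpowers b := by
  have : Fact (Nat.Prime 5) := ⟨by norm_num⟩
  obtain ⟨P, l⟩ := (H25.S7C.pg hb).exists_le_sylow
  obtain ⟨P', l'⟩ := (H25.S7C.pg ha).exists_le_sylow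
  obtain ⟨c, e⟩ := exists_smul_eq H P' P
  obtain ⟨k, hk⟩ := IsPGroup.iff_card.1 P.2
  have d := (P : Subgroup H).card_subgroup_dvd_card
  have k1 : k ≤ 1 := by
    by_contra! r
    exact n (((pow_dvd_pow 5 r).trans (dvd_of_eq hk.symm)).trans d)
  have eq : zpowers b = P := eq_of_le_of_card_ge l (by
    rw [Nat.card_zpowers, hb, show Nat.card (P : Subgroup H) = 5 ^ k from hk]
    interval_cases k <;> norm_num)
  refine ⟨c, ?_⟩
  rw [eq, ← e, Sylow.coe_subgroup_smul]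
  exact smul_mem_pointwise_smul _ (MulAut.conj c) _ (l' (mem_zpowers a))

theorem core {G : Type u} [Group G] [Finite G] (X Y : G) (oX : orderOf X = 5) (oY : orderOf Y = 4) (h : Y * X * Y⁻¹ = X ^ 2) :
    ∃ R : Subgroup G, zpowers X ≤ R ∧ R ≤ N_(zpowers X) ∧ Nat.card ↥R = 20 ∧ R ⊓ C_(zpowers X) = zpowers X := by
  have YN : zpowers Y ≤ N_(zpowers X) := zpowers_le.2 (mem_normalizer_fintype (by
    rintro _ ⟨k, rfl⟩
    show Y * X ^ k * Y⁻¹ ∈ zpowers X
    rw [← conj_zpow, h]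
    exact zpow_mem (pow_mem (mem_zpowers X) 2) k))
  have e := coe_mul_of_right_le_normalizer_left (zpowers X) (zpowers Y) YN
  have Y4 : Y ^ 4 = 1 := by rw [← oY, pow_orderOf_eq_one]
  have n2 : ¬ Commute (Y ^ 2) X := fun c => by
    have q : Y ^ 2 * X * (Y ^ 2)⁻¹ = X ^ 4 := by
      calc _ = Y * (Y * X * Y⁻¹) * Y⁻¹ := by rw [pow_two, mul_inv_rev]; simp only [mul_assoc]
        _ = (Y * X * Y⁻¹) ^ 2 := by rw [conj_pow, h]
        _ = _ := by rw [h, ← pow_mul]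
    rw [c.eq, mul_inv_cancel_right] at q
    have q3 : X ^ 3 = 1 := by
      calc X ^ 3 = X⁻¹ * X ^ 4 := by group
        _ = 1 := by rw [← q, inv_mul_cancel]
    have := orderOf_dvd_of_pow_eq_one q3
    rw [oX] at this
    omega
  refine ⟨zpowers X ⊔ zpowers Y, le_sup_left, sup_le le_normalizer YN, ?_, le_antisymm ?_ (le_inf le_sup_left ?_)⟩
  · have d1 := card_dvd_of_le (le_sup_left : zpowers X ≤ zpowers X ⊔ zpowers Y)
    have d2 := card_dvd_of_le (le_sup_right : zpowers Y ≤ zpowers X ⊔ zpowers Y)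
    rw [Nat.card_zpowers] at d1 d2
    rw [oX] at d1
    rw [oY] at d2
    have l : Nat.card ↥(zpowers X ⊔ zpowers Y) ≤ Nat.card (zpowers X) * Nat.card (zpowers Y) := by
      have := Set.natCard_mul_le (s := (zpowers X : Set G)) (t := (zpowers Y : Set G))
      rw [← e] at this
      exact this
    rw [Nat.card_zpowers, Nat.card_zpowers, oX, oY] at l
    have p : 0 < Nat.card ↥(zpowers X ⊔ zpowers Y) := Nat.card_pos
    omega
  · rintro r ⟨h1, h2⟩
    have h1' : r ∈ ((zpowers X ⊔ zpowers Y : Subgroup G) : Set G) := h1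
    rw [e] at h1'
    obtain ⟨p, hp, w, hw, rfl⟩ := h1'
    have c1 : Commute (p * w) X := (h2 X (mem_zpowers X)).symm
    obtain ⟨k, rfl⟩ := hp
    have c2 : Commute w X := by
      have := ((Commute.refl X).zpow_left k).inv_left.mul_left c1
      simpa using this
    classical
    have hw' := mem_zpowers_iff_mem_range_orderOf.1 hw
    obtain ⟨j, hj, rfl⟩ := Finset.mem_image.1 hw'
    rw [Finset.mem_range, oY] at hj
    interval_cases j
    · simpa using zpow_mem (mem_zpowers X) k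
    · exact absurd (by simpa using c2.pow_left 2) n2
    · exact absurd c2 n2
    · refine absurd ?_ n2
      have := c2.pow_left 2
      rwa [← pow_mul, show 3 * 2 = 4 + 2 from rfl, pow_add, Y4, one_mul] at this
  · rintro _ ⟨k, rfl⟩ _ ⟨l, rfl⟩
    exact (Commute.zpow_zpow_self X l k).eq

theorem r : _root_.L.Jf.RStmt.{u} := by
  intro G _ _ z z' σ V K ⟨x0, y0, ox, oy, xy⟩ n25 KN ⟨e⟩ zz c1 σz oσ
  have : Fact (Nat.Prime 5) := ⟨by norm_num⟩
  obtain ⟨y, x, yN, oy, ox, xy⟩ : ∃ y x : G, y ∈ N_(V) ∧ orderOf y = 5 ∧ orderOf x = 4 ∧ x * y * x⁻¹ = y ^ 2 :=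
    ⟨e.symm x0, e.symm y0, KN (e.symm x0).2, by rw [orderOf_coe, MulEquiv.orderOf_eq, ox], by rw [orderOf_coe, MulEquiv.orderOf_eq, oy],
      by rw [← coe_inv, ← coe_mul, ← coe_mul, ← map_inv, ← map_mul, ← map_mul, xy, map_pow, coe_pow]⟩
  have oc : ∀ g a : G, orderOf (g * a * g⁻¹) = orderOf a := fun g a => (MulAut.conj g).orderOf_eq a
  let _ : MulAction (zpowers y) G := MulAction.compHom _ ((MulAut.conj (G := G)).comp (zpowers y).subtype)
  let S : SubMulAction (zpowers y) G := ⟨{v : G | ∃ n ∈ N_(V), n * z' * n⁻¹ = v}, by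
    rintro k _ ⟨n, hn, rfl⟩
    exact ⟨k.1 * n, mul_mem (zpowers_le.2 yN k.2) hn, by
      show _ = k.1 * (n * z' * n⁻¹) * k.1⁻¹
      group⟩⟩
  obtain ⟨⟨_, n, hn, rfl⟩, hs⟩ := (H25.S7C.pg oy).nonempty_fixed_point_of_prime_not_dvd_card S (by
    rw [show Nat.card S = 1771 from c1]; norm_num)
  have k : y * (n * z' * n⁻¹) * y⁻¹ = n * z' * n⁻¹ := congrArg Subtype.val (hs ⟨y, mem_zpowers y⟩)
  obtain ⟨g, hg⟩ := isConj_iff.1 (zz.trans (isConj_iff.2 ⟨n, rfl⟩)).symm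
  have m1 : g * y * g⁻¹ ∈ C_[z] := mem_centralizer_singleton_iff.2 (by
    rw [← hg, conj_mul, conj_mul, mul_inv_eq_iff_eq_mul.1 k])
  obtain ⟨c, i, hi⟩ := cj5 n25 ⟨σ, σz⟩ ⟨_, m1⟩ (by rw [orderOf_mk, oσ]) (by rw [orderOf_mk, oc, oy])
  have hi : (g * y * g⁻¹) ^ i = c.1 * σ * c.1⁻¹ := congrArg Subtype.val hi
  have hσ : σ = (c.1⁻¹ * g) * y ^ i * (c.1⁻¹ * g)⁻¹ := by
    rw [conj_zpow] at hi
    calc σ = c.1⁻¹ * (c.1 * σ * c.1⁻¹) * c.1 := by group
      _ = _ := by rw [← hi]; group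
  generalize c.1⁻¹ * g = h at hσ
  have eq : zpowers σ = zpowers (h * y * h⁻¹) := eq_of_le_of_card_ge (zpowers_le.2 ⟨i, by rw [hσ]; exact conj_zpow⟩)
    (by rw [Nat.card_zpowers, Nat.card_zpowers, oc, oy, oσ])
  rw [eq]
  exact core _ (h * x * h⁻¹) (by rw [oc, oy]) (by rw [oc, ox]) (by rw [conj_pow, ← xy]; group)

end H29.R5
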