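import Mathlib
import Cfsg.Agent.H29.Emb

/-!
Recognition of Fi22 and Fi23 from the centraliser of an involution (namespace H29).
* `T22.meet`, `good_inter`, `IsU.plane`, `tt_comp`, `t22_of_loc`, `t23_of_loc` (a class that is locally `U6(2)` or `Fi22`);
* `LM` (involutions in the centraliser), `LM.map`, `LM.dperp_eq`, `lm22`, `lm23`;
* `rec22`, `rec23`.
-/

set_option autoImplicit false
set_option maxRecDepth 100000
open Cfsg Subgroup H13 H10

namespace H29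

variable {G G' : Type*} [Group G] [Group G']

theorem T22.meet [Finite G] {D : Set G} (h : T22 D) {d a b : G} (hd : d ∈ D) (ha : a ∈ adjs D d) (hb : b ∈ adjs D d) :
    ∃ n ∈ mu D d a, Commute b n := by
  have k : ∀ b ∈ adjs D d, Commute a b → ∃ n ∈ mu D d a, Commute b n := fun b hb c => by
    by_cases q : b = a
    · obtain ⟨n, hn⟩ := h.1.exists_mu hd ha; exact ⟨n, hn, q ▸ hn.2.2⟩
    obtain ⟨u, hu, p, rfl⟩ := h.1.tt.exists_label hd ha hb c q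
    exact Set.nonempty_of_ncard_ne_zero (s := {n | n ∈ mu D d a ∧ _}) (by
      rw [h.1.tt.sep_label hd ha hu p, (h.counts hd ha).1 u hu p]; norm_num)
  by_cases q : far d a b
  · exact Set.nonempty_of_ncard_ne_zero (s := {n | n ∈ mu D d a ∧ _}) (by rw [(h.counts hd ha).2 b hb q]; norm_num)
  by_cases q' : Commute a b
  · exact k b hb q'
  obtain ⟨n, hn, c⟩ := k _ (h.1.tt.star_mem hd hb) (by_contra fun r => q ⟨q', r⟩)
  exact ⟨n, hn, (h.1.tt.commute_of_conj hd hn.2.1.symm c.symm).symm⟩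

theorem good_inter [Finite G] {U X Y : Set G} (hU : IsU 6 U) (gX : Good U X) (gY : Good U Y) : (X ∩ Y).Nonempty := by
  obtain ⟨D, h⟩ : ∃ D : Set Spor.Fi23, T23 D := ⟨_, Fi23.t23⟩
  obtain ⟨d, hd, -⟩ := h.1.two
  obtain ⟨a, ha⟩ := h.1.exists_adj hd
  obtain ⟨m, hm⟩ := h.1.exists_mu hd ha
  have hm' := mu_subset_dperp ha.2 hm
  have E := h.2 d hd
  obtain ⟨b, hb⟩ := E.1.exists_adj hm'
  have key : ∀ X', Good (dperp (dperp _ d) m) X' → (∀ b ∈ adjs (dperp _ d) m, ∃ n ∈ X', Commute b n) →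
      ∀ f, IsoBy f U (dperp (dperp _ d) m) → Maps f U X X' → Eqv (dperp (dperp _ d) m) (f '' Y) (mu (dperp _ d) m b) →
      (X ∩ Y).Nonempty := fun X' g H f i p e => by
    obtain ⟨k, -, k1, k2⟩ := e.exists_adj E.1.tt subset_rfl hb (fun v hv => ⟨fun q => q.2.2, fun q => ⟨hv.1, hv.2.2, q⟩⟩) i.tt'
    obtain ⟨n, n1, n2⟩ := H _ k1
    obtain ⟨y, y1, rfl⟩ := (k2 n (g.sub n1)).2 n2
    exact ⟨y, (p y (gY.sub y1)).2 n1, y1⟩
  have gb := E.good hm' hb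
  by_cases q : Eqv U X Y
  · obtain ⟨f, i, p, -⟩ := u6_triple hU (E.2 m hm') (fun _ => X) (fun _ => _) (fun _ => gX) (fun _ => gb) fun _ _ => .inl ⟨rfl, rfl⟩
    exact key _ gb (fun b' hb' => E.meet hm' hb hb') f i p (i.eqv (i.maps_image gY.sub) p (q.symm hU.tt))
  have n := h.not_eqv hd ha hm hb
  obtain ⟨f, i, p, e⟩ := u6_triple hU (E.2 m hm') ![X, Y, Y] ![dperp (mu D d a) m, mu (dperp D d) m b, mu (dperp D d) m b]
    (fun i => by fin_cases i; exacts [gX, gY, gY]) (fun i => by fin_cases i; exacts [h.good hd ha hm, gb, gb]) fun i j => by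
      have q' := mt (Eqv.symm hU.tt) q
      have n' := mt (Eqv.symm (E.2 m hm').tt) n
      fin_cases i <;> fin_cases j <;> simp [q, q', n, n']
  refine key _ (h.good hd ha hm) (fun b' hb' => ?_) f i p (e 1)
  obtain ⟨n, hn⟩ : (mu (mu D d a) m b').Nonempty := Set.nonempty_of_ncard_ne_zero (by
    by_cases r : b' ∈ mu D d a
    · rw [(h.det0 hd ha hm).1 _ ⟨r, hb'.2⟩]; norm_num
    · rw [(h.det0 hd ha hm).2 _ ⟨hb', r⟩]; norm_num)
  exact ⟨n, mu_subset_dperp hb'.2 hn, hn.2.2⟩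

/-- Gram pairing on coefficient triples -/
def gr (β s t : F4 × F4 × F4) : F4 := s.1 ^ 2 * (t.2.1 * β.1 + t.2.2 * β.2.1) + s.2.1 ^ 2 * (t.1 * β.1 ^ 2 + t.2.2 * β.2.2) +
  s.2.2 ^ 2 * (t.1 * β.2.1 ^ 2 + t.2.1 * β.2.2 ^ 2)

/-- transvection on coefficient triples -/
def rg (β s t : F4 × F4 × F4) : F4 × F4 × F4 := t + gr β s t • s

set_option synthInstance.maxSize 1000 in
theorem plane_ok : ∀ β a : F4 × F4 × F4, β.1 ≠ 0 → β.2.1 ≠ 0 → β.2.2 ≠ 0 → gr β (rg β (1, 0, 0) (0, 1, 0)) (0, 0, 1) ≠ 0 →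
    ∃ t ∈ [(1, 0, 0), (0, 1, 0), (0, 0, 1), rg β (1, 0, 0) (0, 1, 0), rg β (1, 0, 0) (0, 0, 1), rg β (0, 1, 0) (0, 0, 1),
      rg β (1, 0, 0) (rg β (0, 1, 0) (0, 0, 1)), rg β (0, 1, 0) (rg β (1, 0, 0) (0, 0, 1)),
      rg β (0, 0, 1) (rg β (1, 0, 0) (0, 1, 0))], t.1 * a.1 + t.2.1 * a.2.1 + t.2.2 * a.2.2 = 0 := by decide +kernel

theorem IsU.plane {n : ℕ} {E M : Set G} (h : IsU n E) (hM : M ⊆ E) (T : TT M) {u v w x : G} (hu : u ∈ M) (hv : v ∈ M)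
    (hw : w ∈ M) (a1 : ¬ Commute u v) (a2 : ¬ Commute u w) (a3 : ¬ Commute v w) (a4 : ¬ Commute (u * v * u) w) (hx : x ∈ E) :
    ∃ z ∈ M, Commute x z := by
  obtain ⟨p, L⟩ := h
  obtain ⟨u, u0, rfl⟩ := L.surj u (hM hu)
  obtain ⟨v, v0, rfl⟩ := L.surj v (hM hv)
  obtain ⟨w, w0, rfl⟩ := L.surj w (hM hw)
  obtain ⟨x, x0, rfl⟩ := L.surj x hx
  let j : F4 × F4 × F4 → Fin n → F4 := fun t => t.1 • u + t.2.1 • v + t.2.2 • w
  let β := ((uF n).B u v, (uF n).B u w, (uF n).B v w)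
  have b : ∀ s t, (uF n).B (j s) (j t) = gr β s t := fun s t => by
    simp [j, gr, β, L.root.B_comm u v, L.root.B_comm u w, L.root.B_comm v w, (uF n).B_self_eq_zero u0.2,
      (uF n).B_self_eq_zero v0.2, (uF n).B_self_eq_zero w0.2, uF_σ]
  have r : ∀ s t, j (rg β s t) = j t + (uF n).B (j s) (j t) • j s := fun s t => by
    rw [b]; simp only [j, rg, Prod.fst_add, Prod.snd_add, Prod.smul_fst, Prod.smul_snd, smul_eq_mul]; module
  have k : ∀ s t, j s ∈ pts (uF n) 0 ∧ p (j s) ∈ M → j t ∈ pts (uF n) 0 ∧ p (j t) ∈ M →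
      j (rg β s t) ∈ pts (uF n) 0 ∧ p (j (rg β s t)) ∈ M := fun s t hs ht => by
    rw [r]; exact ⟨L.root.rf_mem hs.1.2 ht.1, L.conj _ hs.1 _ ht.1 ▸ T.conj _ hs.2 _ ht.2⟩
  have j0 : j (1, 0, 0) = u := by simp [j]
  have j1 : j (0, 1, 0) = v := by simp [j]
  have j2 : j (0, 0, 1) = w := by simp [j]
  have k0 : j (1, 0, 0) ∈ pts (uF n) 0 ∧ p (j (1, 0, 0)) ∈ M := j0 ▸ ⟨u0, hu⟩
  have k1 : j (0, 1, 0) ∈ pts (uF n) 0 ∧ p (j (0, 1, 0)) ∈ M := j1 ▸ ⟨v0, hv⟩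
  have k2 : j (0, 0, 1) ∈ pts (uF n) 0 ∧ p (j (0, 0, 1)) ∈ M := j2 ▸ ⟨w0, hw⟩
  obtain ⟨t, t1, t2⟩ := plane_ok β ((uF n).B x u, (uF n).B x v, (uF n).B x w) (mt (L.commute0 u0 v0).2 a1)
    (mt (L.commute0 u0 w0).2 a2) (mt (L.commute0 v0 w0).2 a3) (by
      rw [← b, r, j0, j1, j2]
      exact mt (L.commute0 (L.root.rf_mem u0.2 v0) w0).2 (L.conj _ u0 _ v0 ▸ a4))
  have : j t ∈ pts (uF n) 0 ∧ p (j t) ∈ M := by
    simp only [List.mem_cons, List.not_mem_nil, or_false] at t1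
    rcases t1 with rfl | rfl | rfl | rfl | rfl | rfl | rfl | rfl | rfl
    exacts [k0, k1, k2, k _ _ k0 k1, k _ _ k0 k2, k _ _ k1 k2, k _ _ k0 (k _ _ k1 k2), k _ _ k1 (k _ _ k0 k2),
      k _ _ k2 (k _ _ k0 k1)]
  exact ⟨_, this.2, L.commute_of_B x0 this.1 (by simpa [j] using t2)⟩

theorem IsU.exists_plane {M : Set G} (h : IsU 4 M) : ∃ u ∈ M, ∃ v ∈ M, ∃ w ∈ M, ¬ Commute u v ∧ ¬ Commute u w ∧
    ¬ Commute v w ∧ ¬ Commute (u * v * u) w := by
  obtain ⟨p, L⟩ := h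
  have w0 : ![1, 0, F4.w, 0] ∈ pts (uF 4) 0 := ⟨by decide, by rw [uF_Q]; decide⟩
  refine ⟨_, L.mem _ g1_mem, _, L.mem _ g3_mem, _, L.mem _ w0, ?_, ?_, ?_, ?_⟩
  · rw [L.commute0 g1_mem g3_mem, uF_B]; decide
  · rw [L.commute0 g1_mem w0, uF_B]; decide
  · rw [L.commute0 g3_mem w0, uF_B]; decide
  · rw [L.conj _ g1_mem _ g3_mem, L.commute0 (L.root.rf_mem g1_mem.2 g3_mem) w0, uF_B, uF_B]; decide

theorem tt_comp {Δ : Set G} (h1 : ∀ x ∈ Δ, x * x = 1 ∧ x ≠ 1) (h2 : ∀ g, ∀ x ∈ Δ, g * x * g⁻¹ ∈ Δ)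
    (h3 : ∀ x ∈ Δ, TT (dperp Δ x)) (h4 : ∀ a ∈ Δ, ∀ b ∈ dperp Δ a, ∀ x ∈ adjs (dperp Δ a) b, ∀ y ∈ adjs (dperp Δ b) a,
      ∃ z ∈ Δ, Commute z x ∧ Commute z y) {d : G} (hd : d ∈ Δ) : TT (comp Δ d) := by
  have k : ∀ x ∈ comp Δ d, ∀ y ∈ comp Δ d, ∃ c ∈ Δ, Commute c x ∧ Commute c y := fun x hx y hy =>
    comp_induction (P := fun y => ∃ c ∈ Δ, Commute c x ∧ Commute c y) ⟨x, hx.1, .refl x, .refl x⟩
      (fun b hb ⟨a, ha, p, q⟩ y hy r => by
        by_cases s : Commute b x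
        · exact ⟨b, hb.1, s, r⟩
        by_cases s' : Commute a y
        · exact ⟨a, ha, p, s'⟩
        exact h4 a ha b ⟨hb.1, fun e => s (e ▸ p), q⟩ x ⟨⟨hx.1, fun e => s (e ▸ q.symm), p⟩, s⟩ y
          ⟨⟨hy, fun e => s' (e ▸ q), r⟩, s'⟩) hx.1 (comp_eq hd hx ▸ hy)
  refine ⟨tts_of (fun a ha => (h1 a ha.1).1) (fun a ha => (h1 a ha.1).2) fun a ha b hb => ?_, fun a ha b hb => ?_⟩
  · obtain ⟨c, hc, p, q⟩ := k a ha b hb
    by_cases s : a = c
    · exact .inl (s ▸ q)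
    by_cases s' : b = c
    · exact .inl (s' ▸ p.symm)
    exact tts_cases (h3 c hc).tts ⟨ha.1, s, p⟩ ⟨hb.1, s', q⟩
  · obtain ⟨c, hc, p, q⟩ := k a ha b hb
    exact mem_comp_of_commute (mem_comp_of_commute ha hc p.symm) (by
      simpa only [inv_eq_of_mul_eq_one_right (h1 a ha.1).1] using h2 a b hb.1) (commute_conj3 p q)

section
variable [Finite G] {d : G} (h1 : d * d = 1) (h2 : d ≠ 1)
include h1 h2

omit [Finite G] in
theorem cls_facts : (∀ x ∈ conjugatesOf d, x * x = 1 ∧ x ≠ 1) ∧ ∀ g, ∀ x ∈ conjugatesOf d, g * x * g⁻¹ ∈ conjugatesOf d :=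
  ⟨fun x hx => by obtain ⟨g, rfl⟩ := isConj_iff.1 hx; exact ⟨by rw [conj_mul, h1]; simp, by simpa⟩,
    fun g x hx => IsConj.trans hx (isConj_iff.2 ⟨g, rfl⟩)⟩

omit h1 h2 [Finite G] in
theorem iso_conj (T : TT (dperp (conjugatesOf d) d)) (g : G) : IsoBy (MulAut.conj g) (dperp (conjugatesOf d) d)
    (dperp (conjugatesOf d) (g * d * g⁻¹)) := by
  have := isoBy_hom T (MulAut.conj g).toMonoidHom (fun a ha => by simpa using tts_ne_one T.tts ha) (MulAut.conj g).injective.injOn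
  rwa [show _ '' _ = dperp (conjugatesOf d) (g * d * g⁻¹) from Set.ext fun x => ⟨?_, fun q => ⟨g⁻¹ * x * g⁻¹⁻¹, ?_, by simp [mul_assoc]⟩⟩]
    at this
  · rintro ⟨y, q, rfl⟩
    exact ⟨IsConj.trans q.1 (isConj_iff.2 ⟨g, rfl⟩), by simpa using q.2.1, (commute_conj_iff g).2 q.2.2⟩
  · exact ⟨IsConj.trans q.1 (isConj_iff.2 ⟨_, rfl⟩), fun e => q.2.1 (by rw [← e]; group),
      by simpa using (commute_conj_iff' g).1 q.2.2⟩

omit h1 h2 in
theorem top_of_loc (T : TT (comp (conjugatesOf d) d)) (L : ∀ x ∈ conjugatesOf d, R3 (dperp (conjugatesOf d) x))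
    (hg : closure (dperp (conjugatesOf d) d) = centralizer {d}) (hz : ∀ w, Commute w d → Cen (dperp (conjugatesOf d) d) w → w = 1 ∨ w = d)
    (H : ∀ D : Set G, R3 D → (∀ x ∈ D, dperp D x = dperp (conjugatesOf d) x ∧ x ∈ conjugatesOf d) →
      (∀ x ∈ D, centralizer {x} ≤ closure D) → (∀ x ∈ D, ∀ y, IsConj x y → Commute x y → y ∈ D) → (∀ w, Cen D w → w = 1) → Emb D) :
    comp (conjugatesOf d) d = conjugatesOf d ∧ R3 (conjugatesOf d) ∧ closure (conjugatesOf d) = ⊤ ∧ center G = ⊥ := by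
  have m : d ∈ conjugatesOf d := mem_conjugatesOf_self
  have m' := mem_comp_self m
  have R := r3_of_lg T (LG.of_r3 fun x hx => dperp_comp hx ▸ L x hx.1) (conn_comp m) ⟨d, m'⟩
  have z : ∀ w, Cen (comp (conjugatesOf d) d) w → w = 1 := fun w hw =>
    (hz w (hw d m') fun v hv => hw v (mem_comp_of_commute m' hv.1 hv.2.2)).resolve_right fun e =>
      let ⟨c, hc⟩ := R.exists_adj m'; hc.2 (e ▸ hw c hc.1)
  have E := H _ R (fun x hx => ⟨dperp_comp hx, hx.1⟩) (fun x hx k hk => by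
    obtain ⟨g, hg', rfl⟩ := R.cls d m' x hx
    have : g⁻¹ * k * g ∈ closure (comp (conjugatesOf d) d) := closure_mono (fun v hv => mem_comp_of_commute m' hv.1 hv.2.2)
      (hg.ge (mem_centralizer_singleton_iff.2 ((commute_conj_iff' g).1 (mem_centralizer_singleton_iff.1 hk).symm).symm))
    exact (mul_mem_cancel_left (inv_mem hg')).1 ((mul_mem_cancel_right hg').1 this))
    (fun x hx y c q => mem_comp_of_commute hx (IsConj.trans hx.1 c) q) z
  have e : comp (conjugatesOf d) d = conjugatesOf d := (comp_subset _ _).antisymm fun y hy =>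
    E.mem m' hy (E.eq_top ▸ mem_top y)
  exact ⟨e, e ▸ R, e ▸ E.eq_top, eq_bot_iff.2 fun w hw => z w fun v _ => (mem_center_iff.1 hw v).symm⟩

theorem t22_of_loc (h : IsU 6 (dperp (conjugatesOf d) d)) (hg : closure (dperp (conjugatesOf d) d) = centralizer {d})
    (hz : ∀ w, Commute w d → Cen (dperp (conjugatesOf d) d) w → w = 1 ∨ w = d) :
    T22 (conjugatesOf d) ∧ closure (conjugatesOf d) = ⊤ ∧ center G = ⊥ := by
  have L : ∀ x ∈ conjugatesOf d, IsU 6 (dperp (conjugatesOf d) x) := fun x hx => by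
    obtain ⟨g, rfl⟩ := isConj_iff.1 hx; exact (iso_conj h.tt g).isU h
  obtain ⟨-, a, b⟩ := top_of_loc (tt_comp (cls_facts h1 h2).1 (cls_facts h1 h2).2 (fun x hx => (L x hx).tt)
    (fun a ha b hb x hx y hy => by
      have M := (L b hb.1).mu (n := 4) (mem_dperp_comm ha hb) hy
      obtain ⟨u, hu, v, hv, w, hw, a1, a2, a3, a4⟩ := M.exists_plane
      obtain ⟨z, z1, z2⟩ := (L a ha).plane (fun t ht => (dperp_dperp_comm _ b a ▸ mu_subset_dperp hy.2 ht).1) M.tt hu hv hw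
        a1 a2 a3 a4 hx.1
      exact ⟨z, z1.1.1, z2.symm, z1.2.2.symm⟩) mem_conjugatesOf_self) (fun x hx => (L x hx).r3 (n := 2)) hg hz
    fun D R e => T22.emb ⟨R, fun x hx => (e x hx).1 ▸ L x (e x hx).2⟩
  exact ⟨⟨a, L⟩, b⟩

theorem t23_of_loc (h : T22 (dperp (conjugatesOf d) d)) (hg : closure (dperp (conjugatesOf d) d) = centralizer {d})
    (hz : ∀ w, Commute w d → Cen (dperp (conjugatesOf d) d) w → w = 1 ∨ w = d) :
    T23 (conjugatesOf d) ∧ closure (conjugatesOf d) = ⊤ ∧ center G = ⊥ := by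
  have L : ∀ x ∈ conjugatesOf d, T22 (dperp (conjugatesOf d) x) := fun x hx => by
    obtain ⟨g, rfl⟩ := isConj_iff.1 hx; exact (iso_conj h.1.tt g).t22 h
  obtain ⟨-, a, b⟩ := top_of_loc (tt_comp (cls_facts h1 h2).1 (cls_facts h1 h2).2 (fun x hx => (L x hx).1.tt)
    (fun a ha b hb x hx y hy => by
      obtain ⟨z, z1, z2⟩ := good_inter ((L a ha).2 b hb) ((L a ha).good hb hx)
        (dperp_dperp_comm _ b a ▸ (L b hb.1).good (mem_dperp_comm ha hb) hy)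
      exact ⟨z, z1.1.1, z1.2.2.symm, z2.2.2.symm⟩) mem_conjugatesOf_self) (fun x hx => (L x hx).1) hg hz
    fun D R e => T23.emb ⟨R, fun x hx => (e x hx).1 ▸ L x (e x hx).2⟩
  exact ⟨⟨a, L⟩, b⟩

end

/-- a square inside the centraliser of `d` -/
def Sq (d g : G) : Prop := ∃ y, Commute y d ∧ y * y = g

/-- the involutions of the centraliser of `d` -/
structure LM (d : G) (U T : Set G) : Prop where
  r3 : R3 U
  gen : closure U = centralizer {d}
  cz : ∀ w, Commute w d → Cen U w → w = 1 ∨ w = d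
  inv : ∀ g, Commute g d → g * g = 1 → g = 1 ∨ g = d ∨ g ∈ U ∨ d * g ∈ U ∨ Sq d g ∨ g ∈ T
  two : ∀ s ∈ U, ∀ t ∈ dperp U s, Sq d (s * t) ∧ Sq d (d * (s * t))
  sub : ∀ x ∈ T, Commute x d
  tr : ∀ x ∈ T, ∀ y ∈ T, ∃ g, Commute g d ∧ g * x * g⁻¹ = y
  mul : ∀ x ∈ T, d * x ∈ T
  ex : ∃ x ∈ T, ∃ y ∈ T, Commute x y ∧ y ≠ x ∧ d * y ≠ x ∧ d ≠ x ∧ Sq d (x * y) ∧ Sq d (d * (x * y))

theorem LM.comm {d x : G} {U T : Set G} (h : LM d U T) (hx : x ∈ U) : Commute x d :=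
  mem_centralizer_singleton_iff.1 (h.gen.le (subset_closure hx))

/-- an isomorphism of centralisers -/
structure PI (f : G → G') (d : G) (d' : G') : Prop where
  mul : ∀ x y, Commute x d → Commute y d → f (x * y) = f x * f y
  inj : ∀ x y, Commute x d → Commute y d → f x = f y → x = y
  surj : ∀ y, Commute y d' → ∃ x, Commute x d ∧ f x = y
  eq : f d = d'

theorem pi_conj (g d : G) : PI (fun x => g * x * g⁻¹) d (g * d * g⁻¹) :=
  ⟨fun _ _ _ _ => conj_mul.symm, fun _ _ _ _ => (conj_inj g).1,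
    fun y h => ⟨g⁻¹ * y * g, ((commute_conj_iff' g).1 h.symm).symm, by group⟩, rfl⟩

theorem exists_pi {d : G} {d' : G'} (e : centralizer ({d'} : Set G') ≃* centralizer ({d} : Set G))
    (h : (e ⟨d', mem_centralizer_singleton_iff.2 rfl⟩ : G) = d) : ∃ f, PI f d d' ∧ ∀ x, f (e x) = x := by
  classical
  let f : G → G' := fun x => if h : x ∈ centralizer {d} then e.symm ⟨x, h⟩ else 1
  have k : ∀ x, f (e x) = x := fun x => by simp [f]
  have s : ∀ x, Commute x d → ∃ y, (e y : G) = x := fun x hx =>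
    ⟨e.symm ⟨x, mem_centralizer_singleton_iff.2 hx⟩, by simp⟩
  refine ⟨f, ⟨fun x y a b => ?_, fun x y a b c => ?_, fun y a => ⟨_, mem_centralizer_singleton_iff.1 (e ⟨y,
    mem_centralizer_singleton_iff.2 a⟩).2, k _⟩, h ▸ k _⟩, k⟩ <;> obtain ⟨x, rfl⟩ := s x a <;> obtain ⟨y, rfl⟩ := s y b
  · rw [← coe_mul, ← map_mul, k, k, k, coe_mul]
  · rw [k, k] at c; rw [Subtype.ext c]

namespace PI

variable {f : G → G'} {d : G} {d' : G'} (h : PI f d d')
include h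

theorem one : f 1 = 1 := by simpa using h.mul 1 1 (.one_left d) (.one_left d)

theorem inv {x : G} (a : Commute x d) : f x⁻¹ = (f x)⁻¹ :=
  eq_inv_of_mul_eq_one_left (by rw [← h.mul _ _ a.inv_left a, inv_mul_cancel, h.one])

theorem commute_iff {x y : G} (a : Commute x d) (b : Commute y d) : Commute (f x) (f y) ↔ Commute x y := by
  rw [commute_iff_eq, ← h.mul _ _ a b, ← h.mul _ _ b a]
  exact ⟨h.inj _ _ (a.mul_left b) (b.mul_left a), fun e => congrArg f e⟩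

theorem comm {x : G} (a : Commute x d) : Commute (f x) d' := h.eq ▸ (h.commute_iff a (.refl d)).2 a

theorem sq {x : G} (a : Sq d x) : Sq d' (f x) := let ⟨y, b, c⟩ := a; ⟨f y, h.comm b, c ▸ (h.mul y y b b).symm⟩

theorem isoBy {U : Set G} (T : TT U) (a : ∀ x ∈ U, Commute x d) : IsoBy f U (f '' U) := by
  have c : ∀ x ∈ U, ∀ y ∈ U, f (x * y * x) = f x * f y * f x := fun x hx y hy => by
    rw [h.mul _ _ ((a x hx).mul_left (a y hy)) (a x hx), h.mul _ _ (a x hx) (a y hy)]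
  refine ⟨T, ⟨tts_of ?_ ?_ ?_, ?_⟩, Set.InjOn.bijOn_image fun x hx y hy => h.inj x y (a x hx) (a y hy), c⟩
  · rintro _ ⟨x, hx, rfl⟩; rw [← h.mul _ _ (a x hx) (a x hx), tts_sq T.tts hx, h.one]
  · rintro _ ⟨x, hx, rfl⟩ e; exact tts_ne_one T.tts hx (h.inj _ _ (a x hx) (.one_left d) (e.trans h.one.symm))
  · rintro _ ⟨x, hx, rfl⟩ _ ⟨y, hy, rfl⟩
    exact (tts_cases T.tts hx hy).imp (h.commute_iff (a x hx) (a y hy)).2 fun e => by rw [← c x hx y hy, e, c y hy x hx]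
  · rintro _ ⟨x, hx, rfl⟩ _ ⟨y, hy, rfl⟩; exact ⟨_, T.conj x hx y hy, c x hx y hy⟩

theorem lm {U T : Set G} (L : LM d U T) : LM d' (f '' U) (f '' T) := by
  have i := h.isoBy L.r3.tt fun _ => L.comm
  have md : ∀ x, Commute x d → f (d * x) = d' * f x := fun x a => h.eq ▸ h.mul _ _ (.refl d) a
  refine ⟨i.r3 L.r3, le_antisymm ((closure_le _).2 ?_) fun y hy => ?_, fun w a' b => ?_, fun g a' b => ?_, fun s hs t ht => ?_,
    ?_, ?_, ?_, ?_⟩
  · rintro _ ⟨x, hx, rfl⟩; exact mem_centralizer_singleton_iff.2 (h.comm (L.comm hx))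
  · obtain ⟨x, a, rfl⟩ := h.surj y (mem_centralizer_singleton_iff.1 hy)
    have k : ∀ x ∈ closure U, Commute x d := fun x hx => mem_centralizer_singleton_iff.1 (L.gen.le hx)
    have := L.gen.ge (mem_centralizer_singleton_iff.2 a)
    clear a hy
    induction this using closure_induction with
    | mem x hx => exact subset_closure ⟨x, hx, rfl⟩
    | one => exact h.one ▸ one_mem _
    | mul x y a b p q => exact h.mul x y (k x a) (k y b) ▸ mul_mem p q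
    | inv x a p => exact h.inv (k x a) ▸ inv_mem p
  · obtain ⟨w, a, rfl⟩ := h.surj w a'
    exact (L.cz w a fun v hv => (h.commute_iff a (L.comm hv)).1 (b _ ⟨v, hv, rfl⟩)).imp (fun e => (congrArg f e).trans h.one) fun e => (congrArg f e).trans h.eq
  · obtain ⟨g, a, rfl⟩ := h.surj g a'
    exact (L.inv g a (h.inj _ _ (a.mul_left a) (.one_left d) (by rw [h.mul _ _ a a, b, h.one]))).imp (fun e => (congrArg f e).trans h.one)
      (.imp (fun e => (congrArg f e).trans h.eq) (.imp (⟨g, ·, rfl⟩) (.imp (⟨_, ·, md g a⟩) (.imp h.sq (⟨g, ·, rfl⟩)))))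
  · obtain ⟨s, a, rfl⟩ := hs
    obtain ⟨t, b, rfl⟩ := ht.1
    have := L.two s a t ((i.mem_dperp a b).1 ht)
    rw [← h.mul _ _ (L.comm a) (L.comm b), ← md _ ((L.comm a).mul_left (L.comm b))]
    exact ⟨h.sq this.1, h.sq this.2⟩
  · rintro _ ⟨x, hx, rfl⟩; exact h.comm (L.sub x hx)
  · rintro _ ⟨x, hx, rfl⟩ _ ⟨y, hy, rfl⟩
    obtain ⟨g, a, rfl⟩ := L.tr x hx y hy
    exact ⟨f g, h.comm a, by rw [h.mul _ _ (a.mul_left (L.sub x hx)) a.inv_left, h.mul _ _ a (L.sub x hx), h.inv a]⟩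
  · rintro _ ⟨x, hx, rfl⟩; exact ⟨_, L.mul x hx, md x (L.sub x hx)⟩
  · obtain ⟨x, hx, y, hy, a, b, c, e, p, q⟩ := L.ex
    have u := L.sub x hx
    have v := L.sub y hy
    refine ⟨_, ⟨x, hx, rfl⟩, _, ⟨y, hy, rfl⟩, (h.commute_iff u v).2 a, mt (h.inj _ _ v u) b, ?_, ?_, ?_⟩
    · rw [← md y v]; exact mt (h.inj _ _ ((Commute.refl d).mul_left v) u) c
    · rw [← h.eq]; exact mt (h.inj _ _ (.refl d) u) e
    · rw [← h.mul _ _ u v, ← md _ (u.mul_left v)]; exact ⟨h.sq p, h.sq q⟩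

end PI

namespace LM

variable {d : G} {U T : Set G} (h : LM d U T) (h1 : d * d = 1) (h2 : ∀ y, y * y ≠ d)
include h h1 h2

omit h h1 in
theorem not_sq {x c : G} (hx : IsConj d x) : ¬ Sq c x := fun ⟨y, _, e⟩ => by
  obtain ⟨g, rfl⟩ := isConj_iff.1 hx
  exact h2 (g⁻¹ * y * g⁻¹⁻¹) (by rw [conj_mul, e]; group)

theorem cases0 {x : G} (hx : IsConj d x) (c : Commute x d) (n : x ≠ d) : x ∈ U ∨ d * x ∈ U ∨ x ∈ T := by
  have n1 : d ≠ 1 := fun e => h2 1 (by simp [e])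
  obtain ⟨a, b⟩ := (cls_facts h1 n1).1 x hx
  simpa [b, n, not_sq (c := d) h2 hx] using h.inv x c a

theorem cases {v : G} (hv : IsConj d v) (c : Commute v d) (n : v ≠ d) : v ∈ U ∨ d * v ∈ U := by
  refine or_assoc.2 (h.cases0 h1 h2 hv c n) |>.resolve_right fun q => ?_
  have k : ∀ x ∈ T, IsConj d x := fun x hx => let ⟨g, _, e⟩ := h.tr v q x hx; hv.trans (isConj_iff.2 ⟨g, e⟩)
  obtain ⟨x, hx, y, hy, a, b, c, e, p, p'⟩ := h.ex
  obtain ⟨g, hg⟩ := isConj_iff.1 (k x hx)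
  have L := hg ▸ (pi_conj g d).lm h
  have sx : x * x = 1 := by rw [← hg, conj_mul, h1]; simp
  have nx : ∀ y, y * y ≠ x := fun y e => not_sq h2 (k x hx) ⟨y, .one_right y, e⟩
  set U' := (fun x => g * x * g⁻¹) '' U
  have key : ∀ w, IsConj d w → Commute w x → w ≠ x → Sq d (x * w) → ∃ s ∈ U', w = s ∨ w = x * s := fun w r c n s => by
    rcases L.cases0 sx nx ((k x hx).symm.trans r) c n with q | q | q
    exacts [⟨w, q, .inl rfl⟩, ⟨_, q, .inr (by rw [← mul_assoc, sx, one_mul])⟩,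
      let ⟨m, _, e⟩ := L.tr w q _ (L.mul w q); absurd s (not_sq h2 (r.trans (isConj_iff.2 ⟨m, e⟩)))]
  have cx := h.sub x hx
  obtain ⟨s, s1, s2⟩ := key y (k y hy) a.symm b p
  obtain ⟨t, t1, t2⟩ := key _ (k _ (h.mul y hy)) (cx.symm.mul_left a.symm) c (by rwa [← mul_assoc, cx.eq, mul_assoc])
  have sy : y * y = 1 := ((cls_facts h1 fun e => h2 1 (by simp [e])).1 y (k y hy)).1
  have cs := L.comm s1
  have ct := L.comm t1
  have E : d = t * s ∨ d = x * (t * s) := by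
    have : d = d * y * y := by rw [mul_assoc, sy, mul_one]
    rcases s2 with s2 | s2 <;> rcases t2 with t2 | t2 <;> rw [t2] at this <;> nth_rw 1 [s2] at this
    exacts [.inl this, .inr (this.trans (mul_assoc _ _ _)), .inr (by rw [this, ← mul_assoc, ct.eq, mul_assoc]),
      .inl (by rw [this, ← ct.eq, mul_assoc, ← mul_assoc x, sx, one_mul])]
  by_cases q : s = t
  · rw [q, tts_sq L.r3.tts t1, mul_one] at E
    exact E.elim (fun e => h2 1 (by simp [e])) e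
  have ts : Commute t s := by
    have : t * s * (t * s) = 1 := E.elim (· ▸ h1) fun e => by
      rw [e, (ct.mul_left cs).mul_mul_mul_comm, sx, one_mul] at h1; exact h1
    rw [commute_iff_eq, eq_inv_of_mul_eq_one_left this, mul_inv_rev, tts_inv L.r3.tts s1, tts_inv L.r3.tts t1]
  obtain ⟨u1, u2⟩ := L.two t t1 s ⟨s1, q, ts⟩
  exact E.elim (fun e => not_sq h2 (IsConj.refl d) (e ▸ u1)) fun e => not_sq h2 (IsConj.refl d) (e ▸ u2)

theorem dperp_eq {u : G} (hu : u ∈ U) (c : IsConj d u) : dperp (conjugatesOf d) d = U := by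
  have k : ∀ x ∈ U, x ∈ dperp (conjugatesOf d) d := fun x hx =>
    let ⟨g, _, e⟩ := h.r3.cls u hu x hx
    ⟨c.trans (isConj_iff.2 ⟨g, e⟩), fun q => let ⟨_, a⟩ := h.r3.exists_adj hx; a.2 (q ▸ (h.comm a.1).symm), (h.comm hx).symm⟩
  refine Set.Subset.antisymm (fun v hv => (h.cases h1 h2 hv.1 hv.2.2.symm hv.2.1).elim id fun q => False.elim ?_) k
  have k' : ∀ x ∈ dperp (conjugatesOf d) d, IsConj d (d * x) := fun x hx =>
    (h.cases h1 h2 hx.1 hx.2.2.symm hx.2.1).elim (fun r => by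
      obtain ⟨g, a, rfl⟩ := h.r3.cls _ q x r
      have := conj_eq_of_commute (mem_centralizer_singleton_iff.1 (h.gen.le a))
      rw [← conj_mul, this, ← mul_assoc, h1, one_mul]
      exact hv.1.trans (isConj_iff.2 ⟨g, rfl⟩)) fun r => (k _ r).1
  obtain ⟨t, ht⟩ := h.r3.exists_dperp hu
  obtain ⟨g, rfl⟩ := isConj_iff.1 c
  have := k' (g⁻¹ * t * g⁻¹⁻¹) ⟨(k t ht.1).1.trans (isConj_iff.2 ⟨_, rfl⟩), fun e => ht.2.1 (by rw [← e]; group),
    by simpa using (commute_conj_iff' g).1 ht.2.2⟩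
  exact not_sq h2 (this.trans (isConj_iff.2 ⟨g, by group⟩)) (h.two _ hu t ht).1

end LM

theorem Sq.conj {d x g : G} (h : Sq d x) (c : Commute g d) : Sq d (g * x * g⁻¹) :=
  let ⟨y, a, b⟩ := h; ⟨g * y * g⁻¹, (c.mul_left a).mul_left c.inv_left, by rw [conj_mul, b]⟩

theorem lm_of [Finite G] {D T : Set G} (h : RL 2 D) (h1 : closure D = ⊤) (hz : center G = ⊥) {d : G} (hd : d ∈ D) (F : Fib D d)
    (gen : closure (dperp D d) = centralizer {d}) (sub : ∀ x ∈ T, CP (dperp D d) 3 x)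
    (inv : ∀ g ∈ closure (dperp D d), Cen (dperp D d) (g * g) → (∃ m ≤ 2, ∃ w, CP (dperp D d) m w ∧ Cen (dperp D d) (g * w)) ∨
      ∃ w ∈ T, Cen (dperp D d) (g * w)) (tr : ∀ x ∈ T, ∀ y ∈ T, ∃ g ∈ closure (dperp D d), g * x * g⁻¹ = y)
    (cj : ∀ x ∈ T, ∀ g ∈ closure (dperp D d), g * x * g⁻¹ ∈ T) {x y s t : G} (hx : x ∈ T) (hy : y ∈ T) (m : d * x ∈ T)
    (hs : s ∈ dperp D d) (ht : t ∈ dperp (dperp D d) s) (e : x * y = s * t) (q : Sq d (d * (s * t))) :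
    LM d (dperp D d) T := by
  have R := (h.2 d hd).1
  have cm : ∀ {g}, g ∈ closure (dperp D d) → Commute g d := commute_of_mem_closure_dperp
  have two : ∀ s ∈ dperp D d, ∀ t ∈ dperp (dperp D d) s, Sq d (s * t) ∧ Sq d (d * (s * t)) := fun u hu v hv => ⟨by
    obtain ⟨a, ha, -, -, -, -, p, q, -⟩ := R.exists_string hu hv
    refine ⟨a * u * a * v * a, cm (mul_mem (mul_mem (mul_mem (mul_mem (subset_closure ha) (subset_closure hu))
      (subset_closure ha)) (subset_closure hv.1)) (subset_closure ha)), ?_⟩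
    have a1 := tts_braid R.tts hu ha p
    have a2 := tts_braid R.tts ha hv.1 q
    calc a * u * a * v * a * (a * u * a * v * a) = a * u * a * v * (a * a) * u * (a * v * a) := by group
      _ = u * a * (u * v * u) * (a * v * a) := by rw [tts_sq R.tts ha, ← a1]; group
      _ = u * (a * v * a) * v * a := by rw [hv.2.2.eq, tts_cancel' R.tts hu]; group
      _ = u * v := by rw [a2, mul_assoc u, tts_cancel' R.tts hv.1, mul_assoc u, tts_cancel' R.tts ha], by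
    obtain ⟨g, a, rfl, rfl⟩ := R.pair_comm hs ht hu hv
    simpa only [← conj_mul, conj_eq_of_commute (cm a)] using q.conj (cm a)⟩
  have mul : ∀ y ∈ T, d * y ∈ T := fun y hy => by
    obtain ⟨g, a, rfl⟩ := tr x hx y hy
    simpa only [← conj_mul, conj_eq_of_commute (cm a)] using cj _ m g a
  have sd := tts_sq h.1.tts hd
  have sq := fun x hx => (sub x hx).sq R.tts
  refine ⟨R, gen, fun w => h.1.eq_one_or h1 hz hd F, fun g a b => ?_, two, fun x hx => cm (sub x hx).wd.mem,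
    fun x hx y hy => let ⟨g, a, b⟩ := tr x hx y hy; ⟨g, cm a, b⟩, mul, x, hx, y, hy, ?_, fun r => ?_, fun r => ?_, fun r => ?_,
    e ▸ two s hs t ht⟩
  · have k : ∀ {m w}, CP (dperp D d) m w → Cen (dperp D d) (g * w) → g = w ∨ d * g = w ∧ g = d * w := fun {m w} p q => by
      have c := cm p.wd.mem
      have i := inv_eq_of_mul_eq_one_right (p.sq R.tts)
      refine (h.1.eq_one_or h1 hz hd F (a.mul_left c) q).imp (fun r => i ▸ eq_inv_of_mul_eq_one_left r) fun r => ?_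
      rw [eq_mul_inv_of_mul_eq r, i, ← mul_assoc, sd, one_mul]; exact ⟨rfl, rfl⟩
    rcases inv g (gen.ge (mem_centralizer_singleton_iff.2 a)) (b ▸ fun _ _ => .one_left _) with ⟨m, p, w, q, r⟩ | ⟨w, q, r⟩
    · have := k q r
      interval_cases m
      · rw [cp_zero.1 q, mul_one] at this; tauto
      · rw [cp_one] at q; rcases this with rfl | ⟨rfl, -⟩ <;> tauto
      · obtain ⟨u, hu, v, hv, rfl⟩ := cp_two.1 q
        have := two u hu v hv
        rcases ‹_ ∨ _› with rfl | ⟨-, rfl⟩ <;> tauto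
    · have := mul w q
      rcases k (sub w q) r with rfl | ⟨-, rfl⟩ <;> tauto
  · rw [commute_iff_eq, eq_inv_of_mul_eq_one_left (e ▸ tts_mul_sq R.tts hs ht.1 ht.2.2 : x * y * (x * y) = 1), mul_inv_rev,
      inv_eq_of_mul_eq_one_right (sq x hx), inv_eq_of_mul_eq_one_right (sq y hy)]
  · exact tts_mul_ne_one R.tts ht.1 ht.2.1.symm (by rw [← e, r, sq x hx])
  · exact h.ne_one (m := 3) (by omega) (by omega) le_rfl (cp_three.2 ⟨d, hd, s, hs, t, ht, rfl⟩) (by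
      rw [mul_assoc, ← e, ← r, mul_assoc d, sq y hy, mul_one, sd])
  · exact absurd (h.le le_rfl (by omega) le_rfl (cp_one.2 hd) (r ▸ (sub x hx).mono fun _ q => q.1)) (by omega)

theorem IsU.tr_gen [Finite G] {U : Set G} (h : IsU 6 U) {a b c a' b' c' : G} (ha : a ∈ U) (hb : b ∈ dperp U a)
    (hc : c ∈ dperp (dperp U a) b) (hv : ¬ vrel (dperp U a) b c) (ha' : a' ∈ U) (hb' : b' ∈ dperp U a')
    (hc' : c' ∈ dperp (dperp U a') b') (hv' : ¬ vrel (dperp U a') b' c') :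
    ∃ g ∈ closure U, g * (a * b * c) * g⁻¹ = a' * b' * c' := by
  have R := h.r3 (n := 2)
  obtain ⟨g, hg, rfl, rfl⟩ := R.pair_comm ha hb ha' hb'
  have i := (h.tt.isoBy_conj hg).dperp ha
  replace hv := mt (i.vrel_iff hb hc.1).1 hv
  replace hc := (i.mem_dperp hb hc.1).2 hc
  suffices ∃ k ∈ closure (dperp (dperp U (g * a * g⁻¹)) (g * b * g⁻¹)), k * (g * c * g⁻¹) * k⁻¹ = c' by
    obtain ⟨k, k1, k2⟩ := this
    refine ⟨k * g, mul_mem (closure_mono (fun _ q => q.1.1) k1) hg, ?_⟩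
    rw [← k2, ← conj_eq_of_commute (commute_of_mem_closure_dperp k1), ← conj_eq_of_commute
      (commute_of_mem_closure_dperp (closure_mono (fun _ q => q.1) k1))]
    group
  generalize g * a * g⁻¹ = a at *
  generalize g * b * g⁻¹ = b at *
  generalize g * c * g⁻¹ = c at *
  have T := (h.tt.dperp a).dperp b
  have k : ∀ u ∈ dperp (dperp U a) b, ∀ v ∈ dperp (dperp U a) b, ¬ Commute u v →
      ∃ k ∈ closure (dperp (dperp U a) b), k * u * k⁻¹ = v := fun u hu v hv q =>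
    ⟨u * v, mul_mem (subset_closure hu) (subset_closure hv), by
      rw [mul_inv_rev, tts_inv T.tts hu, tts_inv T.tts hv, ← mul_assoc, tts_braid T.tts hu hv q, tts_cancel' T.tts hv,
        tts_cancel' T.tts hu]⟩
  by_cases q : Commute c c'
  swap; exact k c hc c' hc' q
  obtain ⟨e, e1, e2, e3⟩ : ∃ e ∈ dperp U a, Commute b e ∧ ¬ Commute c e := by
    by_contra! r
    exact hv (vrel_of_imp_cls (h.tt.dperp a) (R.com a ha') hb' hc.1 r)
  have he : e ∈ dperp (dperp U a) b := ⟨e1, fun r => e3 (r ▸ hc.2.2.symm), e2⟩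
  obtain ⟨m, m1, m2⟩ := k c hc e he e3
  obtain ⟨n, n1, n2⟩ := k e he c' hc' fun r => by
    obtain ⟨p, L⟩ := h
    obtain ⟨x, y, w, t, rfl, rfl, rfl, ind⟩ := L.exists_tri ha' hb' hc' hv'
    obtain ⟨z, z0, rfl⟩ := L.surj c hc.1.1
    obtain ⟨e, e0, rfl⟩ := L.surj e e1.1
    have x0 : x ∈ pts (uF 6) 0 := ⟨fun r => by simpa using ind 1 0 0 (by simp [r]), t.qx⟩
    have y0 : y ∈ pts (uF 6) 0 := ⟨fun r => by simpa using ind 0 1 0 (by simp [r]), t.qy⟩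
    have w0 : w ∈ pts (uF 6) 0 := ⟨fun r => by simpa using ind 0 0 1 (by simp [r]), t.qz⟩
    have le : Submodule.span F4 (Set.range ![x, y, w]) ≤ (uF 6).perp (Submodule.span F4 (Set.range ![x, y, w])) :=
      Submodule.span_le.2 fun u hu => (uF 6).mem_perp_span.2 fun v hv => by
        obtain ⟨i, rfl⟩ := hu
        obtain ⟨j, rfl⟩ := hv
        fin_cases i <;> fin_cases j <;> simp [t.xy, t.xz, t.yz, (uF 6).B_symm_zero t.xy, (uF 6).B_symm_zero t.xz,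
          (uF 6).B_symm_zero t.yz, (uF 6).B_self_eq_zero t.qx, (uF 6).B_self_eq_zero t.qy, (uF 6).B_self_eq_zero t.qz]
    have d3 := finrank_span_eq_card (R := F4) (b := ![x, y, w]) (Fintype.linearIndependent_iff.2 fun g e i => by
      have := ind (g 0) (g 1) (g 2) (by simpa [Fin.sum_univ_three] using e)
      fin_cases i; exacts [this.1, this.2.1, this.2.2])
    have := (uF 6).finrank_perp (Submodule.span F4 (Set.range ![x, y, w]))
    rw [Module.finrank_fin_fun, d3, Fintype.card_fin] at this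
    have := (Submodule.eq_of_le_of_finrank_eq le (by rw [d3, Fintype.card_fin]; omega)).ge
      ((uF 6).mem_perp_span.2 (show ∀ v ∈ Set.range ![x, y, w], (uF 6).B v z = 0 by
        simp [(L.commute0 x0 z0).1 hc.1.2.2, (L.commute0 y0 z0).1 hc.2.2, (L.commute0 w0 z0).1 q.symm]))
    obtain ⟨f, rfl⟩ := (Submodule.mem_span_range_iff_exists_fun F4).1 this
    exact e3 (L.commute_of_B e0 z0 (by simp [Fin.sum_univ_three, (L.commute0 e0 x0).1 e1.2.2.symm,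
      (L.commute0 e0 y0).1 e2.symm, (L.commute0 e0 w0).1 r])).symm
  exact ⟨n * m, mul_mem n1 m1, by rw [← n2, ← m2]; group⟩

section
variable {x : ℕ → G} (hI : H13.Inv x 0)
include hI

theorem comm_of_rel {u : List ℕ} {l : ℕ} (h : evalW x (u ++ l :: (u.reverse ++ [l])) = 1) : Commute (evalW x u) (x l) := by
  rw [evalW_append, evalW_cons, evalW_append, evalW_reverse hI, ← mul_assoc, ← mul_assoc, evalW_cons, evalW_nil, mul_one,
    mul_eq_one_iff_eq_inv, inv_eq_of_mul_eq_one_right (inv0.1 hI l)] at h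
  exact mul_inv_eq_iff_eq_mul.1 h

theorem eq_of_rel {u v : List ℕ} (h : evalW x (u ++ v.reverse) = 1) : evalW x u = evalW x v := by
  rwa [evalW_append, evalW_reverse hI, mul_inv_eq_one] at h

theorem cox_facts (h : Rels x CW.cox9) (n : ¬ Commute (x 0) (x 1)) : (∀ i j, [i, j, i, j] ∈ CW.cox9 → Commute (x i) (x j)) ∧
    ¬ Commute (x 2) (x 3) ∧ ¬ Commute (x 3) (x 4) ∧ ¬ Commute (x 4) (x 5) ∧ ¬ Commute (x 5) (x 6) ∧ ¬ Commute (x 7) (x 8) ∧
    ¬ Commute (x 1) (x 2) := by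
  have c : ∀ i j, [i, j, i, j] ∈ CW.cox9 → Commute (x i) (x j) := fun i j q => by simpa using comm_of_rel hI (u := [i]) (h _ q)
  have k : ∀ i j k, [j, k, j, k, j, k] ∈ CW.cox9 → [i, k, i, k] ∈ CW.cox9 → ¬ Commute (x i) (x j) → ¬ Commute (x j) (x k) :=
    fun i j k p q r s => r (by
      have := eq_of_rel hI (u := [j, k, j]) (v := [k, j, k]) (h _ p)
      simp only [evalW_cons, evalW_nil, mul_one] at this
      rw [← s.eq, ← mul_assoc, inv0.1 hI, one_mul, ← mul_assoc, ← s.eq, mul_assoc, inv0.1 hI, mul_one] at this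
      exact this ▸ c i k q)
  have n1 := k 0 1 2 (by decide) (by decide) n
  have n2 := k 1 2 3 (by decide) (by decide) n1
  have n3 := k 2 3 4 (by decide) (by decide) n2
  have n4 := k 3 4 5 (by decide) (by decide) n3
  exact ⟨c, n2, n3, n4, k 4 5 6 (by decide) (by decide) n4, k 3 7 8 (by decide) (by decide) (k 2 3 7 (by decide) (by decide) n2), n1⟩

end

/-- products of three commuting non-collinear members -/
def Gen3 (U : Set G) : Set G :=
  {g | ∃ a ∈ U, ∃ b ∈ dperp U a, ∃ c ∈ dperp (dperp U a) b, ¬ vrel (dperp U a) b c ∧ g = a * b * c}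

/-- the extra generator of the centraliser -/
noncomputable def w5 : List ℕ := powW [0, 1, 2, 3, 4, 7] 5
/-- a square root -/
noncomputable def y1 : List ℕ := [3, 4, 5, 6, 7, 3, 4, 5, 8, 7, 3, 2, 4, 3, 7, 8] ++ (powW ([5, 3, 4, 5, 7] ++ (w5 ++ [6, 2])) 3 ++
  [8, 7, 3, 4, 2, 3, 7, 8, 5, 4, 3, 7, 6, 5, 4, 3])
/-- a square root -/
noncomputable def y2 : List ℕ := [3, 7] ++ (powW (w5 ++ [7, 8, 4, 7, 2, 3]) 2 ++ [7, 3])
/-- a conjugating element -/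
noncomputable def y3 : List ℕ := [3, 2, 7, 3, 2, 4, 3, 8] ++ (w5.reverse ++ [8, 7, 3])

theorem chkR : relsW 14 3510 Fi22.nW ([y1, y2, y3].map (fun u => u ++ 0 :: (u.reverse ++ [0])) ++ [y1 ++ y1 ++ [0, 2].reverse,
    y2 ++ y2 ++ [0, 2, 4].reverse, y3 ++ ([2, 4, 8] ++ y3.reverse) ++ [0, 2, 4, 8].reverse,
    [2, 4, 8, 2, 6, 8] ++ [4, 6].reverse]) = true := by decide +kernel

theorem lm22 : LM (Fi22.gen 0) (dperp (conjugatesOf (Fi22.gen 0)) (Fi22.gen 0)) (Gen3 (dperp (conjugatesOf (Fi22.gen 0)) (Fi22.gen 0))) ∧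
    ∀ s ∈ dperp (conjugatesOf (Fi22.gen 0)) (Fi22.gen 0), Sq (Fi22.gen 0) (Fi22.gen 0 * s) := by
  have h := Fi22.t22
  have m : Fi22.gen 0 ∈ conjugatesOf (Fi22.gen 0) := mem_conjugatesOf_self
  have U := h.2 _ m
  have gen := h.cent Fi22.closure_cls Fi22.center_eq m
  have R := Fi22.sys.rels_faith Fi22.faith (fun _ => mem_top _) chkR
  have cox : Rels Fi22.gen CW.cox9 := Fi22.hR.kb Fi22.hI [] (by decide +kernel)
  have M := mem_cls9 Fi22.hI cox m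
  obtain ⟨c, n2, n3, n4, n5, n7, -⟩ := cox_facts Fi22.hI cox fun q => Fi22.not_comm q.symm
  have m2 : Fi22.gen 2 ∈ dperp _ (Fi22.gen 0) := ⟨M 2 (by decide), fun e => n2 (e ▸ c 0 3 (by decide)), c 0 2 (by decide)⟩
  have m4 : Fi22.gen 4 ∈ dperp (dperp _ (Fi22.gen 0)) (Fi22.gen 2) := ⟨⟨M 4 (by decide),
    fun e => n4 (e ▸ c 0 5 (by decide)), c 0 4 (by decide)⟩, fun e => n4 (e ▸ c 2 5 (by decide)), c 2 4 (by decide)⟩
  have m6 : Fi22.gen 6 ∈ dperp (dperp _ (Fi22.gen 0)) (Fi22.gen 2) := ⟨⟨M 6 (by decide),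
    fun e => n5 (e ▸ (c 0 5 (by decide)).symm), c 0 6 (by decide)⟩, fun e => n5 (e ▸ (c 2 5 (by decide)).symm), c 2 6 (by decide)⟩
  have m7 : Fi22.gen 7 ∈ dperp (dperp _ (Fi22.gen 0)) (Fi22.gen 2) := ⟨⟨M 7 (by decide),
    fun e => n7 (e ▸ c 0 8 (by decide)), c 0 7 (by decide)⟩, fun e => n7 (e ▸ c 2 8 (by decide)), c 2 7 (by decide)⟩
  have m8 : Fi22.gen 8 ∈ dperp (dperp _ (Fi22.gen 0)) (Fi22.gen 2) := ⟨⟨M 8 (by decide),
    fun e => n7 (e ▸ (c 0 7 (by decide)).symm), c 0 8 (by decide)⟩, fun e => n7 (e ▸ (c 2 7 (by decide)).symm), c 2 8 (by decide)⟩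
  have g : ∀ l, Fi22.gen l ∈ dperp (dperp _ (Fi22.gen 0)) (Fi22.gen 2) → Commute (Fi22.gen l) (Fi22.gen 7) →
      Commute (Fi22.gen l) (Fi22.gen 8) → Fi22.gen 2 * Fi22.gen l * Fi22.gen 8 ∈ Gen3 (dperp _ (Fi22.gen 0)) := fun l a b e =>
    ⟨_, m2, _, a, _, ⟨m8, fun q => n7 (q ▸ b.symm), e⟩, fun v => n7 ((v _ m7).1 b).symm, rfl⟩
  have cj : ∀ x ∈ Gen3 (dperp (conjugatesOf (Fi22.gen 0)) (Fi22.gen 0)), ∀ g ∈ closure (dperp (conjugatesOf (Fi22.gen 0)) (Fi22.gen 0)),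
      g * x * g⁻¹ ∈ Gen3 (dperp (conjugatesOf (Fi22.gen 0)) (Fi22.gen 0)) := by
    rintro _ ⟨a, ha, b, hb, c, hc, v, rfl⟩ g hg
    have i := U.tt.isoBy_conj hg
    exact ⟨_, i.mem ha, _, (i.dperp ha).mem hb, _, ((i.dperp ha).dperp hb).mem hc, mt ((i.dperp ha).vrel_iff hb hc.1).1 v,
      by rw [conj_mul, conj_mul]⟩
  have g4 := g 4 m4 (c 4 7 (by decide)) (c 4 8 (by decide))
  refine ⟨lm_of h.rl Fi22.closure_cls Fi22.center_eq m (h.fib_bb m).1 gen (fun x ⟨a, ha, b, hb, c, hc, _, e⟩ =>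
    cp_three.2 ⟨a, ha, b, hb, c, hc, e⟩) (fun g a b => (U.inv6 a b).imp id fun ⟨a, ha, b, hb, c, hc, v, e⟩ =>
      ⟨_, ⟨a, ha, b, hb, c, hc, v, rfl⟩, e⟩) ?_ cj g4 (g 6 m6 (c 6 7 (by decide)) (c 6 8 (by decide))) ?_ m4.1
    ⟨m6.1, fun e => n3 (e ▸ c 3 6 (by decide)), c 4 6 (by decide)⟩ ?_ ?_, fun s hs => ?_⟩
  · rintro _ ⟨a, ha, b, hb, c, hc, v, rfl⟩ _ ⟨a', ha', b', hb', c', hc', v', rfl⟩
    exact U.tr_gen ha hb hc v ha' hb' hc' v'
  · have := eq_of_rel Fi22.hI (R (y3 ++ ([2, 4, 8] ++ y3.reverse) ++ [0, 2, 4, 8].reverse) (by simp))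
    rw [evalW_append, evalW_append, evalW_reverse Fi22.hI] at this
    have k := cj _ g4 _ (gen.ge (mem_centralizer_singleton_iff.2 (comm_of_rel Fi22.hI (u := y3) (R _ (by simp)))))
    simp only [mul_assoc, evalW_cons, evalW_nil, mul_one] at this k ⊢
    exact this ▸ k
  · simpa [mul_assoc] using eq_of_rel Fi22.hI (R ([2, 4, 8, 2, 6, 8] ++ [4, 6].reverse) (by simp))
  · obtain ⟨g, a, p, q⟩ := (U.r3 (n := 2)).pair_comm m2 m4 m4.1 ⟨m6.1, fun e => n3 (e ▸ c 3 6 (by decide)), c 4 6 (by decide)⟩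
    have a := commute_of_mem_closure_dperp a
    have r : Sq (Fi22.gen 0) (Fi22.gen 0 * (Fi22.gen 2 * Fi22.gen 4)) := ⟨_, comm_of_rel Fi22.hI (u := y2) (l := 0) (R _ (by simp)), by
      simpa [evalW_append] using eq_of_rel Fi22.hI (R (y2 ++ y2 ++ [0, 2, 4].reverse) (by simp))⟩
    simpa only [← conj_mul, conj_eq_of_commute a, p, q] using r.conj a
  · obtain ⟨g, a, rfl⟩ := U.cls _ m2 s hs
    have a := commute_of_mem_closure_dperp a
    have r : Sq (Fi22.gen 0) (Fi22.gen 0 * Fi22.gen 2) := ⟨_, comm_of_rel Fi22.hI (u := y1) (l := 0) (R _ (by simp)), by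
      simpa [evalW_append] using eq_of_rel Fi22.hI (R (y1 ++ y1 ++ [0, 2].reverse) (by simp))⟩
    simpa only [← conj_mul, conj_eq_of_commute a] using r.conj a

/-- a square root -/
noncomputable def y4 : List ℕ := [3, 4, 5, 6, 7, 3, 4, 5, 8, 7, 3, 2, 1, 4, 3, 2, 7, 3, 4, 5, 6, 8, 7, 3] ++
  (powW [4, 8, 3, 1, 4, 5, 0, 4, 1, 2, 0, 8, 6, 1, 8, 1, 8, 3, 1, 2, 7] 2 ++
    [3, 7, 8, 6, 5, 4, 3, 7, 2, 3, 4, 1, 2, 3, 7, 8, 5, 4, 3, 7, 6, 5, 4, 3])

theorem rel23 {r : List ℕ} (h : allL fisP ((List.range 10).map fun l => (r, l, [], l)) = true) : evalW Fi23.gen r = 1 := by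
  rw [← mem_bot, ← Fi23.center_eq, ← centralizer_univ, ← coe_top, ← Fi23.top, clW, centralizer_closure]
  rintro _ ⟨u, hu, rfl⟩
  obtain ⟨l, hl, rfl⟩ := (by decide : ∀ u ∈ Fi23.A10, ∃ l < 10, u = [l]) u hu
  have := (evalW_fis Fi23.hI (r, l, [], l)).1 (rels23 h _ (by simpa using ⟨l, hl, rfl⟩))
  rw [evalW_cwd Fi23.hI, mul_inv_eq_iff_eq_mul] at this
  simpa [cwd] using this.symm

theorem chkR' : allL fisP ((List.range 10).map fun l => (y4 ++ y4 ++ (FiA.f2 ++ [0, 2]).reverse, l, [], l)) = true := by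
  decide +kernel

theorem lm23 : LM Fi23.d (dperp (conjugatesOf Fi23.d) Fi23.d) {x | CP (dperp (conjugatesOf Fi23.d) Fi23.d) 3 x} := by
  have h := Fi23.t23
  have m : Fi23.d ∈ conjugatesOf Fi23.d := mem_conjugatesOf_self
  have U := h.2 _ m
  have T := U.1.tt
  have gen := h.cent Fi23.closure_cls Fi23.center_eq m
  obtain ⟨z, hz⟩ := h.1.exists_dperp m
  obtain ⟨a, ha, b, hb, c, hc, -⟩ := (U.2 z hz).exists_tri6
  have p : CP _ 3 (z * a * b) := cp_three.2 ⟨z, hz, a, ha, b, hb, rfl⟩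
  have cd : ∀ u, inOk Fi23.A9 u = true → Commute (evalW Fi23.gen u) Fi23.d := fun u hu =>
    mem_centralizer_singleton_iff.1 (cent23.ge (mem_clW_of_inOk hu))
  refine lm_of (h.rl.mono (by omega)) Fi23.closure_cls Fi23.center_eq m (h.fib_bb m).1 gen (fun _ => id)
    (fun g a b => ?_) (fun x hx y hy => (U.rl.tr 3 le_rfl).1 x y hx hy) (fun x hx g hg => hx.conj g fun _ => T.conj_mem hg) p
    (cp_three.2 ⟨z, hz, a, ha, c, hc.1, rfl⟩) ?_ hb.1.1 ⟨hc.1.1.1, hc.2⟩ ?_ ?_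
  · obtain ⟨m, p, w, q⟩ := U.inv' g a b
    rcases p.lt_or_eq with p | rfl
    exacts [.inl ⟨m, by omega, w, q⟩, .inr ⟨w, q⟩]
  · obtain ⟨w, q, r⟩ := h.hept (cp_succ.2 ⟨_, m, _, p, rfl⟩)
    have e : Fi23.d * (z * a * b) = w := by
      rw [← inv_eq_of_mul_eq_one_right (q.sq h.1.tts), ← mul_eq_one_iff_eq_inv, ← mem_bot, ← Fi23.center_eq,
        ← centralizer_univ, ← coe_top, ← Fi23.closure_cls, centralizer_closure]
      exact fun v hv => (r v hv).symm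
    obtain ⟨l, l1, l2, l3, l4, rfl⟩ := id q
    have k := commute_of_mem_cp h.1.tts l1 l2.le l3 l4 m (e ▸ (Commute.refl _).mul_right (commute_of_mem_closure_dperp p.wd.mem).symm)
    refine e ▸ ⟨l, l1, l2, fun x hx => ⟨l3 x hx, fun r => ?_, k x hx⟩, l4, rfl⟩
    obtain ⟨w, s, t⟩ := cp_of_mem l1 l2 l3 l4 (r ▸ hx)
    rw [t, mul_left_cancel_iff] at e
    exact absurd (h.rl.le (by omega) (by omega) le_rfl (s.mono fun _ q => q.1) (e ▸ p.mono fun _ q => q.1)) (by omega)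
  · rw [← (hb.1.2.2.mul_left hb.2.2).symm.eq, mul_assoc b, ← mul_assoc (z * a), tts_mul_sq T.tts hz ha.1 ha.2.2, one_mul]
  · have n0 : ¬ Commute (Fi23.gen 0) (Fi23.gen 1) := fun q => by
      have := Fi23.sys.fix1 (u := [0, 1, 0, 1]) (i := 1) (j := 695) (by decide) (by decide +kernel)
      simp only [evalW_cons, evalW_nil, mul_one] at this
      rw [q.eq, ← mul_assoc (Fi23.gen 1), Fi23.sq, one_mul, Fi23.sq, one_smul] at this
      exact absurd ((finPts 31671).inj _ (by decide) _ (by decide) this) (by decide)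
    obtain ⟨c', n2, -⟩ := cox_facts Fi23.hI (Fi23.hR.kb Fi23.hI [] (by decide +kernel)) n0
    have k0 : ∀ l < 9, Commute Fi23.d (Fi23.gen l) := fun l hl =>
      (mem_centralizer_singleton_iff.1 (cent23.ge (mem_ws9 hl)) : Commute _ _).symm
    have k : ∀ l < 9, ∀ j < 9, ¬ Commute (Fi23.gen l) (Fi23.gen j) → Fi23.gen l ∈ dperp _ Fi23.d := fun l hl j hj q =>
      ⟨mem23 (by omega), fun e => q (e ▸ k0 j hj), k0 l hl⟩
    obtain ⟨g, a, p, q⟩ := U.1.pair_comm (k 0 (by omega) 1 (by omega) n0) ⟨k 2 (by omega) 3 (by omega) n2,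
      fun e => n2 (e ▸ c' 0 3 (by decide)), c' 0 2 (by decide)⟩ hb.1.1 ⟨hc.1.1.1, hc.2⟩
    have a := commute_of_mem_closure_dperp a
    have r : Sq Fi23.d (Fi23.d * (Fi23.gen 0 * Fi23.gen 2)) := ⟨evalW Fi23.gen y4, cd y4 (by decide +kernel), by
      have := eq_of_rel Fi23.hI (u := y4 ++ y4) (v := FiA.f2 ++ [0, 2]) (rel23 chkR')
      rwa [evalW_append, evalW_append, evalW_cons, evalW_cons, evalW_nil, mul_one] at this⟩
    simpa only [← conj_mul, conj_eq_of_commute a, p, q] using r.conj a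

section
variable [Finite G] {d : G} (h1 : d * d = 1) (h2 : d ≠ 1) {π : centralizer ({d} : Set G) →* G'}
  (X : Ext2 π ⟨d, mem_centralizer_singleton_iff.2 rfl⟩) (h0 : π ⟨d, mem_centralizer_singleton_iff.2 rfl⟩ = 1)
  (hp : commutator (centralizer ({d} : Set G)) = ⊤) (hn : ∃ g : G, g * d * g⁻¹ ∈ centralizer ({d} : Set G) ∧ g * d * g⁻¹ ≠ d)
include h2 X h0

omit [Finite G] in
theorem nsq_of (k : ∀ x, π x * π x = 1 → x * x = 1) (y : G) : y * y ≠ d := fun q =>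
  (X.not_sq h0 (fun e => h2 (congrArg Subtype.val e)) k).2 ⟨y, mem_centralizer_singleton_iff.2
    (q ▸ ((Commute.refl y).mul_right (.refl y)).eq)⟩ (Subtype.ext q)

include h1 hp hn

theorem rec22 [Finite G'] {D : Set G'} (hD : IsU 6 D) (g1 : closure D = ⊤) (gz : center G' = ⊥) :
    T22 (conjugatesOf d) ∧ closure (conjugatesOf d) = ⊤ ∧ center G = ⊥ := by
  have n := nsq_of h2 X h0 fun x => X.sq_of_inv (hD.r3 (n := 2)) g1 gz hD.inv (hD.rel6 g1 gz)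
  obtain ⟨e, he⟩ := X.u6_iso h0 (fun e => h2 (congrArg Subtype.val e)) hp hD g1 gz
  obtain ⟨f, P, -⟩ := exists_pi e he
  have L := P.lm lm22.1
  obtain ⟨g, a, b⟩ := hn
  have c : IsConj d (g * d * g⁻¹) := isConj_iff.2 ⟨g, rfl⟩
  have E := L.dperp_eq h1 n ((L.cases h1 n c (mem_centralizer_singleton_iff.1 a) b).resolve_right fun ⟨s, p, q⟩ =>
    LM.not_sq n c (by
      have := P.sq (lm22.2 s p)
      rwa [P.mul _ _ (.refl _) (lm22.1.comm p), P.eq, q, ← mul_assoc, h1, one_mul] at this)) c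
  exact t22_of_loc h1 h2 (E ▸ (P.isoBy lm22.1.r3.tt fun _ => lm22.1.comm).isU (Fi22.t22.2 _ mem_conjugatesOf_self))
    (E ▸ L.gen) (E ▸ L.cz)

end

theorem rec23 [Finite G] {d : G} (h1 : d * d = 1) (h2 : d ≠ 1) {π : centralizer ({d} : Set G) →* Spor.Fi22}
    (X : Ext2 π ⟨d, mem_centralizer_singleton_iff.2 rfl⟩) (h0 : π ⟨d, mem_centralizer_singleton_iff.2 rfl⟩ = 1)
    (hp : commutator (centralizer ({d} : Set G)) = ⊤) (hn : ∃ g : G, g * d * g⁻¹ ∈ centralizer ({d} : Set G) ∧ g * d * g⁻¹ ≠ d) :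
    T23 (conjugatesOf d) ∧ closure (conjugatesOf d) = ⊤ ∧ center G = ⊥ := by
  have k : ∀ x, π x * π x = 1 → x * x = 1 := fun x => X.sq_of_inv Fi22.t22.1 Fi22.closure_cls Fi22.center_eq Fi22.t22.inv'
    (Fi22.t22.rel Fi22.closure_cls Fi22.center_eq)
  have n := nsq_of h2 X h0 k
  obtain ⟨g, a, b⟩ := hn
  have c : IsConj d (g * d * g⁻¹) := isConj_iff.2 ⟨g, rfl⟩
  have K : ∀ t, π t ∈ conjugatesOf (Fi22.gen 0) → t * t = 1 → ∃ f, PI f Fi23.d d ∧
      (t : G) ∈ f '' dperp (conjugatesOf Fi23.d) Fi23.d := fun t p q =>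
    let ⟨e, he, ht⟩ := X.fi22_iso h0 (fun e => h2 (congrArg Subtype.val e)) hp p q
    let ⟨f, P, hf⟩ := exists_pi e he
    ⟨f, P, _, ht, hf t⟩
  obtain ⟨t, ht⟩ := X.surj (Fi22.gen 0)
  obtain ⟨f, P, p⟩ := K t (ht ▸ mem_conjugatesOf_self) (k t (ht ▸ inv0.1 Fi22.hI 0))
  have L := P.lm lm23
  have k' : ∀ u : centralizer ({d} : Set G), (u : G) ∈ f '' dperp (conjugatesOf Fi23.d) Fi23.d →
      π u ∈ conjugatesOf (Fi22.gen 0) := fun u hu => by
    obtain ⟨m, q, r⟩ := L.r3.cls _ p _ hu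
    rw [show u = ⟨m, L.gen.le q⟩ * t * ⟨m, L.gen.le q⟩⁻¹ from Subtype.ext r.symm, map_mul, map_mul, map_inv, ht]
    exact isConj_iff.2 ⟨_, rfl⟩
  obtain ⟨f, P, p⟩ := K ⟨_, a⟩ ((L.cases h1 n c (mem_centralizer_singleton_iff.1 a) b).elim (k' ⟨_, a⟩) fun q => by
    simpa only [map_mul, h0, one_mul] using k' (⟨d, mem_centralizer_singleton_iff.2 rfl⟩ * ⟨_, a⟩) q) (Subtype.ext (by simp [conj_mul, h1]))
  have L := P.lm lm23
  have E := L.dperp_eq h1 n p c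
  exact t23_of_loc h1 h2 (E ▸ (P.isoBy lm23.r3.tt fun _ => lm23.comm).t22 (Fi23.t23.2 _ mem_conjugatesOf_self))
    (E ▸ L.gen) (E ▸ L.cz)

end H29
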