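import Cfsg.Agent.L.Jt0

/-! S5563–S5565, part T. -/

set_option autoImplicit false

namespace H29.TT
open Cfsg BG Subgroup
universe u

theorem t : L.Jt.TStmt.{u} := by
  intro G _ _ z Q V _ _ _ Γ _ _ f π ν T d M β q s K Y B A δ c l ρ ρs ρk dc
  let F : ↥(C_[z] ⊓ C_[δ]) →* Γ := f.comp (inclusion inf_le_left)
  have Fπ : ∀ x, F x = π x := fun x => s.pf _
  have pm : ∀ (x : G) (h : x ∈ C_[z]), π x = f ⟨x, h⟩ := fun x h => (s.pf ⟨x, h⟩).symm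
  have zz : z ∈ C_[z] := mem_cent1.2 rfl
  have dd : δ ∈ C_[δ] := mem_cent1.2 rfl
  have zd : z ∈ C_[δ] := mem_cent1.2 (mem_cent1.1 c.δz).symm
  let δ' : ↥(C_[z] ⊓ C_[δ]) := ⟨δ, c.δz, dd⟩
  let z' : ↥(C_[z] ⊓ C_[δ]) := ⟨z, zz, zd⟩
  have Fd : F δ' = d := (Fπ _).trans c.δd
  have Fz : F z' = 1 := (Fπ _).trans ((s.ker z zz).2 s.md.lx.aes.mem)
  refine ⟨ρ.comp (F.codRestrict M fun x => (Fπ x).symm ▸ l.inM _ x.2.1 x.2.2), l.z2, l.δ3, c.δz, fun m => ?_, fun x => ?_, dc⟩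
  · obtain ⟨m, rfl⟩ := ρs m
    obtain ⟨x, a, b, e⟩ := l.lift m m.2
    exact ⟨⟨x, a, b⟩, congrArg ρ (Subtype.ext ((Fπ _).trans e))⟩
  · refine (ρk _).trans ⟨fun h => ?_, ?_⟩
    · obtain ⟨j, hj⟩ := mem_powers_iff_mem_zpowers.2 h
      have hj : d ^ j = F x := hj
      have : F (x * (δ' ^ j)⁻¹) = 1 := by rw [map_mul, map_inv, map_pow, Fd, hj, mul_inv_cancel]
      rcases l.qz _ ((s.ker _ (x * (δ' ^ j)⁻¹).2.1).1 ((Fπ _).symm.trans this)) (x * (δ' ^ j)⁻¹).2.2 with r | r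
      · exact ⟨0, j, by rw [pow_zero, one_mul]; exact mul_inv_eq_one.1 r⟩
      · exact ⟨1, j, by rw [pow_one]; exact mul_inv_eq_iff_eq_mul.1 r⟩
    · rintro ⟨i, j, e⟩
      show F x ∈ zpowers d
      rw [show x = z' ^ i * δ' ^ j from Subtype.ext e, map_mul, map_pow, map_pow, Fz, Fd, one_pow, one_mul]
      exact pow_mem (mem_zpowers d) j

end H29.TT
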