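import Cfsg.Agent.L.Jt0

/-! S5563–S5565, part V. -/

set_option autoImplicit false

namespace H29.TV
open Cfsg BG Subgroup
universe u

theorem v : L.Jt.VStmt.{u} := by
  intro G _ _ A N B D z δ h nb xb δN δz δ3 c32 hB hc
  classical
  have zA := h.BA h.zB
  have zd : z ∈ C_[δ] := mem_cent1.2 (mem_cent1.1 δz).symm
  have ex : ∀ x ∈ A ⊓ C_[δ], x ≠ 1 → x ≠ z → (x ∈ D ↔ x * z ∉ D) := fun x hx x1 xz =>
    have nB : x ∉ B := fun r => (hB x r hx.2).elim x1 xz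
    ⟨fun a b => nB (nb.a x a b), fun a => (hc x hx.1 hx.2 nB).resolve_right a⟩
  have pick : ∀ a b c : G, ∃ r ∈ D, r ∈ C_[δ] ∧ r ≠ a ∧ r ≠ b ∧ r ≠ c := fun a b c => by
    obtain ⟨x, hx, n⟩ : ∃ x ∈ A ⊓ C_[δ], x ∉ ([1, z, a, a * z, b, b * z, c, c * z].toFinset : Finset G) := by
      by_contra! g
      have := Set.ncard_le_ncard (s := (A ⊓ C_[δ] : Subgroup G)) (fun x hx => Finset.mem_coe.2 (g x hx))
      rw [Set.ncard_coe_finset, ← Nat.card_coe_set_eq] at this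
      have := (c32.symm.trans_le this).trans (List.toFinset_card_le _)
      simp at this
    simp only [List.mem_toFinset, List.mem_cons, List.not_mem_nil, or_false, not_or] at n
    obtain ⟨n1, n2, n3, n4, n5, n6, n7, n8⟩ := n
    have k : ∀ a, x ≠ a * z → x * z ≠ a := fun a n e => n (by rw [← e, mul_assoc, h.sq z zA, mul_one])
    by_cases d : x ∈ D
    · exact ⟨x, d, hx.2, n3, n5, n7⟩
    · exact ⟨x * z, not_not.1 fun r => d ((ex x hx n1 n2).2 r), mul_mem hx.2 zd, k a n4, k b n6, k c n8⟩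
  obtain ⟨t, tD, td, -⟩ := pick 1 1 1
  refine ⟨ex, ?_, ?_⟩
  · by_contra! g
    obtain ⟨s, sD, sd, st, -⟩ := pick t t t
    obtain ⟨r, rD, rd, rt, rs, rst⟩ := pick t s (s * t)
    have a := g s sD sd r rD rd rs.symm
    exact (xb.one t tD s sD r rD (g s sD sd t tD td st) (g r rD rd t tD td rt) rs rst).1 a
      (g _ a (mul_mem sd rd) t tD td fun e => rst (by rw [← e, ← mul_assoc, h.sq s (h.DA s sD).1, one_mul]))
  · have mv : ∀ m ∈ N, m ∈ C_[t] → ∀ x, x ∈ D ∧ x * t ∈ D → m * x * m⁻¹ ∈ D ∧ m * x * m⁻¹ * t ∈ D := fun m a b x hx =>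
      ⟨h.Dc m a x hx.1, by
        have := h.Dc m a _ hx.2
        rwa [show m * (x * t) * m⁻¹ = m * x * m⁻¹ * t by
          rw [mul_assoc (m * x), ← mul_assoc m, mul_assoc (m * x), mem_cent1.1 (inv_mem b)]] at this⟩
    have dt : δ ∈ C_[t] := mem_cent1.2 (mem_cent1.1 td).symm
    have := Fintype.ofFinite {s // s ∈ D ∧ s * t ∈ D}
    haveI : Fact (Nat.Prime 3) := ⟨by norm_num⟩
    obtain ⟨a, ha⟩ := Equiv.Perm.exists_fixed_point_of_prime (p := 3) (n := 1) (α := {s // s ∈ D ∧ s * t ∈ D})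
      (by rw [← Nat.card_eq_fintype_card, show Nat.card {s // s ∈ D ∧ s * t ∈ D} = 44 from (Nat.card_coe_set_eq _).trans (nb.b t tD)]; norm_num)
      (σ := Equiv.Perm.subtypePerm (MulAut.conj δ).toEquiv fun x =>
        ⟨fun r => by simpa [mul_assoc] using mv _ (inv_mem δN) (inv_mem dt) _ r, mv δ δN dt x⟩)
      (Equiv.ext fun x => Subtype.ext (by
        show δ * (δ * (δ * x.1 * δ⁻¹) * δ⁻¹) * δ⁻¹ = x.1
        have e : δ ^ 3 = 1 := by rw [← δ3, pow_orderOf_eq_one]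
        rw [show δ * (δ * (δ * x.1 * δ⁻¹) * δ⁻¹) * δ⁻¹ = δ ^ 3 * x.1 * (δ ^ 3)⁻¹ by simp [pow_succ, mul_assoc], e]; group))
    have ha : δ * a.1 * δ⁻¹ = a.1 := congrArg Subtype.val ha
    exact ⟨a.1, a.2.1, mem_cent1.2 (mul_inv_eq_iff_eq_mul.1 ha).symm, t, tD, td, a.2.2⟩

end H29.TV
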