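import Cfsg.Agent.H06.W1

/-! S5568, part W. -/

set_option autoImplicit false

namespace H29.WW
open Cfsg BG Subgroup Cfsg.Agent.H06.W
universe u

theorem w (di : DiStmt.{u}) : WStmt.{u} := by
  intro G _ _ A M B D z Ω τ σ h T x pu sc
  classical
  have cm : ∀ a ∈ A, ∀ b ∈ A, a * b = b * a := fun a i b j => by
    refine (mul_eq_one_iff_eq_inv.1 (h.sq _ (mul_mem i j))).trans ?_
    rw [mul_inv_rev, ← mul_eq_one_iff_eq_inv.1 (h.sq _ i), ← mul_eq_one_iff_eq_inv.1 (h.sq _ j)]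
  have tA : ∀ i j, τ i j ∈ A := fun i j => by
    by_cases e : i = j
    · rw [e, T.refl]; exact one_mem _
    · exact (h.DA _ (T.mem i j e)).1
  have f1 : ∀ a ∈ A, a ≠ 1 → a ∉ D → ∀ t ∈ D, C_[a] ⊓ C_[t] ≤ M := fun a i a1 n t tD g hg => by
    obtain ⟨m, hm, rfl⟩ := h.trZ a i a1 n
    have := x.ci _ (h.Dc _ (inv_mem hm) t tD) (x := m⁻¹ * g * m) ⟨mem_cent1.2 (by
      have := mem_cent1.1 hg.1
      rw [show m⁻¹ * g * m * z = m⁻¹ * (g * (m * z * m⁻¹)) * m by group, this]; group), mem_cent1.2 (by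
      have := mem_cent1.1 hg.2
      rw [show m⁻¹ * g * m * (m⁻¹ * t * m⁻¹⁻¹) = m⁻¹ * (g * t) * m by group, this]; group)⟩
    simpa [mul_assoc] using mul_mem (mul_mem hm this) (inv_mem hm)
  have f2 : ∀ t ∈ A, ∀ y ∈ C_[t], ∀ v ∈ cj y A, C_[v] ⊓ C_[t] ≤ M → cj y A = A := fun t i y hy v hv l => x.un y fun g hg => l (by
    have k : ∀ a ∈ cj y A, g ∈ C_[a] := fun a ha => mem_cent1.2 (by
      have := cm _ (mem_cj.1 hg) _ (mem_cj.1 ha)
      rw [show g * a = y * (y⁻¹ * g * y * (y⁻¹ * a * y)) * y⁻¹ by group, this]; group)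
    exact ⟨k v hv, k t (mem_cj.2 (by rw [mul_assoc, ← mem_cent1.1 hy, inv_mul_cancel_left]; exact i))⟩)
  have zt : ∀ i j k l, i ≠ j → i ≠ k → i ≠ l → j ≠ k → j ≠ l → k ≠ l → IsConj z (τ i j * τ k l) := fun i j k l a b c d e f => by
    by_contra n
    refine T.non i j k l a b c d e f ((x.hD _ (mul_mem (tA _ _) (tA _ _))).2 ⟨fun r => ?_, n⟩)
    have : τ i j = τ k l := by rw [eq_inv_of_mul_eq_one_left r, inv_eq_of_mul_eq_one_left (h.sq _ (tA k l))]
    rcases T.inj i j k l a this with r | r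
    exacts [b r.1, c r.1]
  have nz : ∀ t ∈ D, ¬ IsConj z t := fun t i => ((x.hD t (h.DA t i).1).1 i).2
  have z1 : ¬ IsConj z 1 := fun r => h.z1 (isConj_one_left.1 r)
  have pk : ∀ a b c d : Ω, ∃ k, k ≠ a ∧ k ≠ b ∧ k ≠ c ∧ k ≠ d := fun a b c d => by
    have : Finite Ω := Nat.finite_of_card_ne_zero (by rw [T.card]; norm_num)
    have := Fintype.ofFinite Ω
    obtain ⟨k, -, n⟩ := Finset.exists_mem_notMem_of_card_lt_card (s := [a, b, c, d].toFinset) (t := Finset.univ)
      ((List.toFinset_card_le _).trans_lt (by rw [Finset.card_univ, ← Nat.card_eq_fintype_card, T.card]; simp))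
    exact ⟨k, by simpa using n⟩
  have mv : ∀ y a b f s : G, y ∈ C_[s] → b * b = 1 → y * a * y⁻¹ * b = f → ¬ IsConj z (a * s) → ¬ IsConj z (f * b * s) :=
    fun y a b f s c b2 e n r => n (r.trans (isConj_iff.2 ⟨y⁻¹, by
      rw [← e, mul_assoc (y * a * y⁻¹) b b, b2, mul_one, inv_inv, mul_assoc, mul_assoc _ s y, ← mem_cent1.1 c]; group⟩))
  have AC : ∀ t ∈ A, A ≤ C_[t] := fun t i a j => mem_cent1.2 (cm a j t i)
  have s1 : ∀ p q r, p ≠ q → p ≠ r → q ≠ r → C_[τ p r] ⊓ C_[τ p q] ≤ M := fun p q r a b c => by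
    obtain ⟨k, k1, k2, k3, -⟩ := pk p q r r
    obtain ⟨l, l1, l2, l3, l4⟩ := pk p q r k
    have e : τ p r * τ p q = τ r q := by rw [T.symm p r, T.mul]
    have e' : τ p q * τ p r = τ q r := by rw [T.symm p q, T.mul]
    let F : Subgroup G := { carrier := {1, τ p r, τ p q, τ r q}
                            one_mem' := by simp
                            mul_mem' := by
                              rintro _ _ (rfl | rfl | rfl | rfl) (rfl | rfl | rfl | rfl) <;>
                                simp [h.sq _ (tA _ _), e, e', T.mul, T.symm q r, show τ r q * τ p r = τ p q by rw [cm _ (tA _ _) _ (tA _ _), T.mul],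
                                  show τ r q * τ p q = τ p r by rw [T.symm p q, T.mul, T.symm],
                                  show τ p q * τ r q = τ p r by rw [T.symm r q, T.mul]]
                            inv_mem' := by
                              rintro _ (rfl | rfl | rfl | rfl) <;> simp [inv_eq_of_mul_eq_one_left (h.sq _ (tA _ _))] }
    have mF : ∀ f ∈ F, f = 1 ∨ f = τ p r ∨ f = τ p q ∨ f = τ r q := fun f i => i
    have nF : ∀ f ∈ F, ¬ IsConj z f := fun f i => by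
      rcases mF f i with rfl | rfl | rfl | rfl
      exacts [z1, nz _ (T.mem _ _ b), nz _ (T.mem _ _ a), nz _ (T.mem _ _ c.symm)]
    have FA : F ≤ A := fun f i => by
      rcases mF f i with rfl | rfl | rfl | rfl
      exacts [one_mem _, tA _ _, tA _ _, tA _ _]
    have YF : ∀ y ∈ C_[τ p r] ⊓ C_[τ p q], ∀ f ∈ F, f * y = y * f := fun y hy f i => by
      rcases mF f i with rfl | rfl | rfl | rfl
      · simp
      · exact (mem_cent1.1 hy.1).symm
      · exact (mem_cent1.1 hy.2).symm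
      · rw [← e, mul_assoc, ← mem_cent1.1 hy.2, ← mul_assoc, ← mem_cent1.1 hy.1, mul_assoc]
    have cF : Nat.card F = 4 := by
      have n1 : ∀ i j, i ≠ j → (1 : G) ≠ τ i j := fun i j n => (h.DA _ (T.mem i j n)).2.symm
      refine (Nat.card_coe_set_eq _).trans (Set.ncard_eq_four.2 ⟨1, τ p r, τ p q, τ r q, n1 _ _ b, n1 _ _ a, n1 _ _ c.symm, fun t => ?_,
        fun t => ?_, fun t => ?_, rfl⟩)
      · rcases T.inj _ _ _ _ b t with t | t; exacts [c t.2.symm, a t.1]
      · rcases T.inj _ _ _ _ b t with t | t; exacts [b t.1, a t.1]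
      · rcases T.inj _ _ _ _ a t with t | t; exacts [b t.1, a t.1]
    have za := zt p q r k a b k1.symm c k2.symm k3.symm
    have zb := zt p q k l a k1.symm l1.symm k2.symm l2.symm l4.symm
    have zs := zt q r k l c k2.symm l2.symm k3.symm l3.symm l4.symm
    rw [x.hM]
    refine di (z := z) (a := τ p q * τ r k) (b := τ p q * τ k l) (F := F) (fun y hy f i => YF y hy f i) FA (le_inf (AC _ (tA _ _)) (AC _ (tA _ _))) h.sq
      (fun y hy n => (eq_of_le_of_card_ge (le_inf FA fun f i => mem_cj.2 (by rw [mul_assoc, YF y hy f i, inv_mul_cancel_left]; exact FA i))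
        (cF ▸ pu _ fun v i v1 => not_not.1 fun d => n (f2 _ (tA p q) y hy.2 v i.2 (f1 v i.1 v1 d _ (T.mem _ _ a))))).ge)
      (fun y hy w i j k => sc _ (T.mem _ _ a) y hy.2 w i j (x.hM ▸ k)) (mul_mem (tA _ _) (tA _ _)) (mul_mem (tA _ _) (tA _ _)) za zb
      (fun i => nF _ i za) (fun i => nF _ i zb) fun y hy i => ?_
    have b2 := h.sq _ (mul_mem (tA p q) (tA k l))
    have m1 := mv y (τ p q * τ r k) _ _ _ hy.1 b2 rfl (by
      rw [mul_assoc, cm _ (tA r k) _ (tA p r), T.mul, T.symm p q, T.mul]; exact nz _ (T.mem _ _ k2.symm))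
    have m2 := mv y (τ p q * τ r k) _ _ _ hy.2 b2 rfl (by
      rw [mul_assoc, cm _ (tA r k) _ (tA p q), ← mul_assoc, h.sq _ (tA _ _), one_mul]; exact nz _ (T.mem _ _ k3.symm))
    have bA := mul_mem (tA p q) (tA k l)
    rcases mF _ i with t | t | t | t <;> rw [t] at m1 m2
    · exact m1 (by rwa [one_mul, mul_assoc, cm _ (tA k l) _ (tA p r), ← mul_assoc, e'])
    · exact m1 (by rwa [cm _ (tA p r) _ bA, mul_assoc, h.sq _ (tA _ _), mul_one])
    · exact m2 (by rwa [cm _ (tA p q) _ bA, mul_assoc, h.sq _ (tA _ _), mul_one])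
    · exact m2 (by rwa [mul_assoc, cm _ bA _ (tA p q), ← mul_assoc (τ p q), h.sq _ (tA _ _), one_mul, T.symm r q])
  intro t tD
  obtain ⟨p, q, a, rfl⟩ := T.surj t tD
  obtain ⟨r, r1, r2, -⟩ := pk p q q q
  obtain ⟨k, k1, k2, k3, -⟩ := pk p q r r
  obtain ⟨l, l1, l2, l3, l4⟩ := pk p q r k
  have mF : ∀ f ∈ zpowers (τ p q), f = 1 ∨ f = τ p q := fun f i => by
    obtain ⟨n, rfl⟩ := mem_powers_iff_mem_zpowers.2 i
    induction n with
    | zero => simp
    | succ n ih =>
      rcases ih (pow_mem (mem_zpowers _) n) with e | e <;> simp only [pow_succ] <;> simp only at e <;> rw [e]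
      · simp
      · exact .inl (h.sq _ (tA _ _))
  have nF : ∀ f ∈ zpowers (τ p q), ¬ IsConj z f := fun f i => by
    rcases mF f i with rfl | rfl
    exacts [z1, nz _ tD]
  have za := zt p q r k a r1.symm k1.symm r2.symm k2.symm k3.symm
  have zb := zt p r k l r1.symm k1.symm l1.symm k3.symm l3.symm l4.symm
  have zs := zt q r k l r2.symm k2.symm l2.symm k3.symm l3.symm l4.symm
  rw [x.hM]
  refine di (z := z) (a := τ p q * τ r k) (b := τ p r * τ k l) (F := zpowers (τ p q)) (fun y hy f i => ?_) (zpowers_le.2 (tA _ _)) (AC _ (tA _ _)) h.sq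
    (fun y hy n v i => not_not.1 fun vn => n (f2 _ (tA p q) y hy v i.2 ?_))
    (fun y hy w i j k => sc _ tD y hy w i j (x.hM ▸ k)) (mul_mem (tA _ _) (tA _ _)) (mul_mem (tA _ _) (tA _ _)) za zb
    (fun i => nF _ i za) (fun i => nF _ i zb) fun y hy i => ?_
  · rcases mF f i with rfl | rfl
    · simp
    · exact (mem_cent1.1 hy).symm
  · have v1 : v ≠ 1 := fun e => vn (e ▸ one_mem _)
    have vt : v ≠ τ p q := fun e => vn (e ▸ mem_zpowers _)
    by_cases d : v ∈ D
    swap; · exact f1 v i.1 v1 d _ tD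
    obtain ⟨c, e, ce, rfl⟩ := T.surj v d
    by_cases c1 : c = p; · subst c1; exact s1 c q e a ce fun u => vt (by rw [u])
    by_cases c2 : c = q; · subst c2; rw [T.symm p c]; exact s1 c p e a.symm ce fun u => vt (by rw [u, T.symm])
    by_cases e1 : e = p; · subst e1; rw [T.symm c e]; exact s1 e q c a ce.symm (Ne.symm c2)
    by_cases e2 : e = q; · subst e2; rw [T.symm c e, T.symm p e]; exact s1 e p c a.symm ce.symm (Ne.symm c1)
    refine fun g hg => f1 _ (mul_mem i.1 (tA p q)) (fun u => z1 (u ▸ zt c e p q ce c1 c2 e1 e2 a)) (T.non c e p q ce c1 c2 e1 e2 a) _ tD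
      ⟨mem_cent1.2 ?_, hg.2⟩
    rw [← mul_assoc, mem_cent1.1 hg.1, mul_assoc, mem_cent1.1 hg.2, mul_assoc]
  · have bA := mul_mem (tA p r) (tA k l)
    have m2 := mv y (τ p q * τ r k) _ _ _ hy (h.sq _ bA) rfl (by
      rw [mul_assoc, cm _ (tA r k) _ (tA p q), ← mul_assoc, h.sq _ (tA _ _), one_mul]; exact nz _ (T.mem _ _ k3.symm))
    rcases mF _ i with t | t <;> rw [t] at m2
    · exact m2 (by rwa [one_mul, cm _ bA _ (tA p q), ← mul_assoc, T.symm p q, T.mul])
    · exact m2 (by rwa [cm _ (tA p q) _ bA, mul_assoc, h.sq _ (tA _ _), mul_one])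

end H29.WW
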